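import Cfsg.Agent.Lib.Linear.Four1

/-! The monomial group is maximal in `SL₅(q)` for `q ≥ 5`. -/

set_option autoImplicit false

namespace Cfsg.Lib.Linear

open Matrix Module Cfsg.Geo
open scoped MatrixGroups

variable {F : Type*} [Field F] [Fintype F] {M : Subgroup (GL (Fin 5) F)}

theorem exists_pow_five_ne (h5 : 5 ≤ Fintype.card F) : ∃ a : F, a ≠ 0 ∧ a ^ 5 ≠ 1 := by
  classical
  by_contra! h
  have h1 := IsCyclic.exponent_eq_card (α := Fˣ) ▸ Monoid.exponent_dvd_of_forall_pow_eq_one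
    fun a : Fˣ => Units.ext (by simpa using h a a.ne_zero)
  rw [Nat.card_eq_fintype_card, Fintype.card_units] at h1
  have h2 := Nat.le_of_dvd (by norm_num) h1
  have h3 := (FiniteField.isPrimePow_card F)
  obtain h | h : Fintype.card F = 5 ∨ Fintype.card F = 6 := by omega
  · simp [h] at h1
  · exact absurd (h ▸ h3) (by decide)

section

variable (h5 : 5 ≤ Fintype.card F) (hM : monoGL (Fin 5) F ⊓ specialLinear (Fin 5) F ≤ M)
  (hA : ∀ g ∈ M, ∀ j k, (∀ i, i ≠ k → g.1 i j = 0) → g ∈ monoGL (Fin 5) F)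
include h5 hM hA

theorem ne_zero_five {g : GL (Fin 5) F} (hg : g ∈ M) (hgm : g ∉ monoGL (Fin 5) F) (k s : Fin 5) :
    g.1 k s ≠ 0 := fun hk => by
  obtain ⟨a, ha, ha4⟩ := exists_pow_five_ne h5
  obtain ⟨t, ht, ht'⟩ := exists_dg (fun i => if i = k then a⁻¹ ^ 4 else a) (by
    fin_cases k <;> simp [Fin.prod_univ_five] <;> field_simp)
  have hy : ∀ i j, (g⁻¹ * t * g).1 i j =
      a * (1 : Matrix (Fin 5) (Fin 5) F) i j + (a⁻¹ ^ 4 - a) * g.1 k j * (g⁻¹).1 i k := fun i j => by
    have : ∀ x, t.1 *ᵥ x = a • x + ((a⁻¹ ^ 4 - a) * x k) • Pi.single k 1 := fun x => by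
      ext i
      by_cases h : i = k <;> simp [ht', mulVec_diagonal, h]
      ring
    rw [← GL_col, GL_mul_mulVec, GL_mul_mulVec, this]
    simp only [mulVec_add, mulVec_smul, GL_inv_mulVec_mulVec, Pi.add_apply, Pi.smul_apply, GL_col]
    simp [Pi.single_apply, one_apply]
  obtain ⟨j, hj⟩ := exists_row_ne_zero g k
  obtain ⟨π, hπ⟩ := hA _ (M.mul_mem (M.mul_mem (M.inv_mem hg) (hM ht)) hg) s s
    (fun i hi => by simp only [hy]; simp [hk, hi]) j
  obtain ⟨p, hp⟩ := exists_notMem_list [j, π] (by simp)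
  obtain ⟨p', hp'⟩ := exists_notMem_list [j, π, p] (by simp)
  simp only [List.mem_cons, List.not_mem_nil, or_false, not_or] at hp hp'
  have h0 : a⁻¹ ^ 4 - a ≠ 0 := fun h0 => ha4 (by field_simp at h0; linear_combination -h0)
  have key : ∀ i, i ≠ j → i ≠ π → (g⁻¹).1 i k = 0 := fun i h1 h2 => by
    have := hπ i h2
    rw [hy] at this
    rw [one_apply_ne h1, mul_zero, zero_add] at this
    exact (mul_eq_zero.1 this).resolve_left (mul_ne_zero h0 hj)
  exact hp'.2.2 (two_zeros h5 hM hA (by simp) (M.inv_mem hg)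
    (fun h => hgm ((Subgroup.inv_mem_iff _).1 h)) (key _ hp'.1 hp'.2.1) (key _ hp.1 hp.2))

theorem const_five {g : GL (Fin 5) F} (hg : g ∈ M) (hgm : g ∉ monoGL (Fin 5) F) {c : Fin 5 → F}
    (hc : ∏ i, c i = 1) {i j : Fin 5} (h : ∑ k, (g⁻¹).1 i k * g.1 k j * c k = 0) {a b d : F}
    (h0 : a * b * d ≠ 0) (h3 : ∀ k, (c k - a) * (c k - b) * (c k - d) = 0) (k l : Fin 5) : c k = c l := by
  obtain ⟨t, ht, ht'⟩ := exists_dg c hc
  have hy := M.mul_mem (M.mul_mem (M.inv_mem hg) (hM ht)) hg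
  have h1 : g⁻¹ * t * g ∈ monoGL (Fin 5) F := by
    by_contra h1
    refine ne_zero_five h5 hM hA hy h1 i j ?_
    rw [← h]
    simp only [Units.val_mul, ht', mul_apply, diagonal_apply, mul_ite, mul_zero,
      Finset.sum_ite_eq', Finset.mem_univ, if_true]
    exact Finset.sum_congr rfl fun k _ => by ring
  choose π hπ using h1
  have g0 := ne_zero_five h5 hM hA hg hgm
  have k1 : ∀ j, ∃ e : F, ∀ k, c k * g.1 k j = e * g.1 k (π j) := fun j => ⟨_, fun k => by
    have := congrFun (congrArg (g.1 *ᵥ ·) (mulVec_single_of_col (hπ j))) k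
    simp only [GL_mul_mulVec, GL_mulVec_inv_mulVec, mulVec_smul] at this
    rwa [ht', mulVec_diagonal, Pi.smul_apply, GL_col, GL_col, smul_eq_mul] at this⟩
  choose e he using k1
  have k2 : ∀ j k, c k ^ 2 * g.1 k j = e j * e (π j) * g.1 k (π (π j)) := fun j k => by
    linear_combination c k * he j k + e j * he (π j) k
  have k3 : ∀ j k, c k ^ 3 * g.1 k j = e j * e (π j) * e (π (π j)) * g.1 k (π (π (π j))) := fun j k => by
    linear_combination c k * k2 j k + e j * e (π j) * he (π (π j)) k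
  have c0 : ∀ k, c k ≠ 0 := fun k e => one_ne_zero (hc.symm.trans (Finset.prod_eq_zero (Finset.mem_univ k) e))
  rcases (by decide +kernel : ∀ π : Equiv.Perm (Fin 5), (∃ j, π j = j) ∨
    (∃ j, π j ≠ j ∧ π (π j) ≠ j ∧ π (π (π j)) ≠ j) ∨ (∃ j, π (π j) = j) ∧ ∃ j, π (π (π j)) = j)
    (Equiv.ofBijective π (Finite.injective_iff_bijective.1 (col_injective hπ))) with
    ⟨j, e1⟩ | ⟨j, e1, e2, e3⟩ | ⟨⟨j, e1⟩, j', e2⟩
  · have := fun k => mul_right_cancel₀ (g0 k j) ((he j k).trans (by rw [show π j = j from e1]))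
    rw [this, this]
  · have k4 : (e j * e (π j) * e (π (π j))) • g.1 *ᵥ Pi.single (π (π (π j))) 1 +
        ((a * b + a * d + b * d) * e j) • g.1 *ᵥ Pi.single (π j) 1 = (a * b * d) • g.1 *ᵥ Pi.single j 1 +
        ((a + b + d) * (e j * e (π j))) • g.1 *ᵥ Pi.single (π (π j)) 1 := funext fun k => by
      simp only [Pi.add_apply, Pi.smul_apply, GL_col, smul_eq_mul]
      linear_combination g.1 k j * h3 k - k3 j k - (a * b + a * d + b * d) * he j k + (a + b + d) * k2 j k
    simp only [← mulVec_smul, ← mulVec_add] at k4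
    have := congrFun (GL_mulVec_injective g k4) j
    simp only [Equiv.ofBijective_apply] at e1 e2 e3
    simp [e1.symm, e2.symm, e3.symm] at this
    exact absurd (by simpa using this) h0
  · have k4 := fun k => mul_right_cancel₀ (g0 k j) ((k2 j k).trans (by rw [show π (π j) = j from e1]))
    have k5 := fun k => mul_right_cancel₀ (g0 k j') ((k3 j' k).trans (by rw [show π (π (π j')) = j' from e2]))
    exact mul_left_cancel₀ (pow_ne_zero 2 (c0 k)) (by
      linear_combination k5 k - k5 l - c l * (k4 k - k4 l))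

theorem mem_mono_five {g : GL (Fin 5) F} (hg : g ∈ M) : g ∈ monoGL (Fin 5) F := by
  by_contra hgm
  set x : Fin 5 → F := fun k => (g⁻¹).1 0 k * g.1 k 1 with hx
  have h0 : ∀ k, x k ≠ 0 := fun k => mul_ne_zero (ne_zero_five h5 hM hA (M.inv_mem hg)
    (fun h => hgm ((Subgroup.inv_mem_iff _).1 h)) _ _) (ne_zero_five h5 hM hA hg hgm _ _)
  have h1 : ∑ k, x k = 0 := congrFun (congrFun g.inv_mul 0) 1
  have key : ∀ c : Fin 5 → F, ∏ i, c i = 1 → ∑ k, x k * c k = 0 → ∀ a b d, _ → _ := fun c hc h a b d =>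
    const_five h5 hM hA hg hgm hc h (a := a) (b := b) (d := d)
  clear_value x
  have h2 : ∀ l, x l = x 0 := fun l => by_contra fun e => by
    obtain ⟨m, hm⟩ := exists_notMem_list [0, l] (by simp)
    have b1 := h0 0
    have b2 := h0 l
    have b3 : l ≠ 0 := by rintro rfl; exact e rfl
    have := key (fun m => if m = 0 then x l / x 0 else if m = l then x 0 / x l else 1) (by
      rw [← Finset.prod_subset (Finset.subset_univ {0, l}) (by simp +contextual), Finset.prod_pair b3.symm]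
      simp [b1, b2, b3]) (by
      rw [← h1, ← sub_eq_zero, ← Finset.sum_sub_distrib,
        ← Finset.sum_subset (Finset.subset_univ {0, l}) (by simp +contextual), Finset.sum_pair b3.symm]
      simp [b3, mul_div_cancel₀, b1, b2]) (x l / x 0)
      (x 0 / x l) 1 (by simp [b1, b2]) (fun k => by beta_reduce; split_ifs <;> simp) 0 m
    simp at hm
    simp [hm] at this
    exact e ((div_eq_one_iff_eq b1).1 this)
  have h3 : (5 : F) = 0 := mul_right_cancel₀ (h0 0) (by
    simp only [Fin.sum_univ_five, h2] at h1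
    linear_combination h1)
  have : (1 : F) = 2 := key ![1, 1, 2, 2, 4] (by simp [Fin.prod_univ_five]; linear_combination 3 * h3) (by
    simp [Fin.sum_univ_five, h2]; linear_combination 2 * x 0 * h3) 1 2 4
    (fun e => one_ne_zero (α := F) (by linear_combination 2 * e - 3 * h3))
    (fun k => by fin_cases k <;> simp) 0 2
  exact one_ne_zero (α := F) (by linear_combination -this)

end

theorem isMaximalIn_lines_five (h5 : 5 ≤ Fintype.card F) {t : ℕ} {D : Fin t → Submodule F (Fin 5 → F)}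
    (hD : IsMDecomposition 1 D) : IsMaximalIn (specialLinear (Fin 5) F)
      (decompositionStabilizer D ⊓ specialLinear (Fin 5) F) := by
  have h3 := not_specialLinear_le_decomp hD
  obtain ⟨P, hP⟩ := exists_decompositionStabilizer_eq hD
  rw [hP] at h3 ⊢
  refine isMaximalIn_conj (isMaximalIn_inf (fun h => h3 fun x hx => ?_) fun M hM hMS g hg hgm =>
    by_contra fun hne => hgm (mem_mono_five h5 hM (fun g hg j k h =>
      mem_mono_of_col h5 (by simp) hM hMS hne hg h) hg)) P
  exact ⟨_, h (normal_specialLinear.conj_mem _ hx P⁻¹), by simp [mul_assoc]⟩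

end Cfsg.Lib.Linear
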