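import Cfsg.Agent.Lib.Linear.MaxDecomp
import Cfsg.Agent.Lib.Asch.Descent

/-!
# Imprimitive groups in `SL 4 q`
-/

namespace Cfsg.Lib.Linear

open Matrix Module Cfsg.Geo
open scoped MatrixGroups

variable {ι : Type} [Fintype ι] [DecidableEq ι] {F : Type*} [Field F] {M : Subgroup (GL ι F)}

theorem mem_mono_of_col_aux' [Fintype F] (h5 : 5 ≤ Fintype.card F) (hn : 4 ≤ Fintype.card ι)
    (hM : monoGL ι F ⊓ specialLinear ι F ≤ M) (hMS : M ≤ specialLinear ι F)
    (hne : ¬ specialLinear ι F ≤ M) {A : GL ι F} (hA : A ∈ M) {k : ι}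
    (hk : ∀ i, i ≠ k → A.1 i k = 0) : A ∈ monoGL ι F := by
  obtain ⟨μ, hμ⟩ := exists_notMem_list [(0 : F), 1, -1] (by simp; omega)
  simp only [List.mem_cons, List.not_mem_nil, or_false, not_or] at hμ
  have hzero : ∀ {A B : GL ι F}, A ∈ M → B ∈ M → ∀ {χ : ι → F},
      (∀ x, B.1 *ᵥ x = A.1 *ᵥ x + (χ ⬝ᵥ x) • Pi.single k 1) → χ = 0 := fun hA hB χ h => by
    by_contra h0
    exact hne (specialLinear_le_of_mono_tv (by omega) hμ.1 hμ.2.1 hM (vecMul_GL_ne_zero _ h0)
      (tv_of_diff hA hB (hMS hA) (hMS hB) h))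
  by_cases hB : resGL A hk ∈ monoGL _ F
  · choose π hπ using hB
    let σ := Equiv.Perm.ofSubtype
      (Equiv.ofBijective π (Finite.injective_iff_bijective.1 (col_injective hπ)))
    have hσ : ∀ i (hi : i ≠ k), σ i = π ⟨i, hi⟩ := fun i hi =>
      Equiv.Perm.ofSubtype_apply_of_mem (p := fun i => i ≠ k) _ hi
    have hσk : σ k = k := Equiv.Perm.ofSubtype_apply_of_not_mem _ (by simp)
    obtain ⟨h, hh, h1, -⟩ := exists_mono σ (fun j => A.1 (σ j) j) (fun j => by
      by_cases hj : j = k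
      · rw [hj, hσk]
        exact ne_zero_of_col hk
      · rw [hσ j hj]
        exact ne_zero_of_col (g := resGL A hk) (hπ ⟨j, hj⟩)) k
    have h2 : ∀ x, A.1 *ᵥ x = h.1 *ᵥ x + ((A.1 - h.1) k ⬝ᵥ x) • Pi.single k 1 := fun x => by
      ext i
      by_cases hi : i = k
      · simp [hi, mulVec, dotProduct, sub_mul]
      obtain ⟨i, rfl⟩ := σ.surjective i
      have hi' : i ≠ k := fun h0 => hi (by rw [h0, hσk])
      rw [Pi.add_apply, h1 x i hi', Pi.smul_apply, Pi.single_eq_of_ne hi, smul_zero, add_zero]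
      refine Finset.sum_eq_single i (fun j _ hj => ?_) (by simp)
      by_cases hjk : j = k
      · exact mul_eq_zero_of_left (hjk ▸ hk _ hi) _
      · exact mul_eq_zero_of_left (hπ ⟨j, hjk⟩ ⟨σ i, hi⟩ fun h0 => hj (σ.injective
          ((hσ j hjk).trans (congrArg Subtype.val h0).symm))) _
    rw [GL_ext_mulVec (g := A) (h := h) fun x => by rw [h2, hzero (hM hh) hA h2]; simp]
    exact hh.1
  exfalso
  obtain ⟨i, j, c, hij, hc, h0, A', hA', h1, h2⟩ := exists_root_of_not_mono (M := quotAxis M k) h5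
    (by simp [Fintype.card_subtype_compl]; omega)
    (fun i c hc => ⟨_, hM (homGL_mul_mem (i := i.1) (j := k) hc), fun l hl => by
      rw [← GL_col, GL_mul_mulVec, homGL_mulVec, homGL_mulVec]
      simp [hl, i.2], by
      ext a b
      rw [← GL_col, res, submatrix_apply, ← GL_col, GL_mul_mulVec, homGL_mulVec, homGL_mulVec,
        homGL_mulVec]
      simp [Pi.single_apply, Subtype.ext_iff, b.2.symm, ite_apply]⟩)
    (fun i j => by
      by_cases hij : i = j
      · rw [hij, Equiv.swap_self, show permGL F (Equiv.refl {i // i ≠ k}) = 1 from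
          GL_ext_mulVec fun x => by simp [permGL_mulVec]]
        exact Subgroup.one_mem _
      refine ⟨permGL F (Equiv.swap i.1 j.1) * homGL k (-1) (by simp), hM ⟨Subgroup.mul_mem _
        (permGL_mem _) (homGL_mem _ _ _), mem_specialLinear.2 ?_⟩, fun l hl => ?_, ?_⟩
      · rw [Units.val_mul, det_mul, det_permGL, det_homGL,
          Equiv.Perm.sign_swap (Subtype.coe_injective.ne hij)]
        simp
      · rw [← GL_col, GL_mul_mulVec, homGL_mulVec, permGL_mulVec]
        have : Equiv.swap i.1 j.1 l ≠ k := fun h0 => hl (by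
          rwa [Equiv.swap_apply_eq_iff, Equiv.swap_apply_of_ne_of_ne i.2.symm j.2.symm] at h0)
        simp [this]
      · ext a b
        rw [← GL_col, res, submatrix_apply, ← GL_col, GL_mul_mulVec, homGL_mulVec, permGL_mulVec,
          permGL_mulVec]
        simp [Pi.single_apply, Subtype.ext_iff, b.2.symm,
          Subtype.coe_injective.swap_apply i j a])
    ⟨A, hA, hk, rfl⟩ hB
  set ψ := (A'.1 - 1) k
  have h3 : ∀ x, A'.1 *ᵥ x = x + (c * x j) • Pi.single i.1 1 + (ψ ⬝ᵥ x) • Pi.single k 1 := by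
    intro x
    ext a
    by_cases ha : a = k
    · simp [ha, ψ, mulVec, i.2.symm, one_dotProduct_one, Matrix.one_apply, dotProduct, sub_mul]
    have h4 : A'.1 a = (1 + vecMulVec (Pi.single i.1 1) (Pi.single j.1 c) : Matrix _ _ F) a := by
      ext b
      by_cases hb : b = k
      · simp [hb, h1 a ha, ha, vecMulVec_apply, j.2.symm]
      · refine (congrFun (congrFun h2 ⟨a, ha⟩) ⟨b, hb⟩).trans ?_
        simp [one_apply, vecMulVec_apply, Pi.single_apply, Subtype.ext_iff]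
    change A'.1 a ⬝ᵥ x = _
    rw [h4]
    change ((1 + vecMulVec _ _) *ᵥ x) a = _
    simp [add_mulVec, vecMulVec_mulVec, ha, mul_comm]
  have hij' : i.1 ≠ j.1 := Subtype.coe_injective.ne hij
  have hψk : ψ k = 0 := by
    have ht : Pi.single j.1 c ⬝ᵥ Pi.single i.1 (1 : F) = 0 := by simp [hij']
    have := (tv_of_diff (M := ⊤) (A := tvGL _ _ ht) trivial trivial (tvGL_mem_specialLinear _ _ _)
      (hMS hA') (χ := ψ) (v := Pi.single k 1) fun x => by rw [h3, tvGL_mulVec]; simp).dot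
    rw [← dotProduct_mulVec, tvGL_inv, tvGL_mulVec] at this
    simpa [j.2] using this
  have hψ : ψ = 0 := by
    obtain ⟨l, hl⟩ := exists_notMem_list [i.1, j.1, k] (by simp; omega)
    simp only [List.mem_cons, List.not_mem_nil, or_false, not_or] at hl
    have hd := hM (homGL_mul_mem (i := k) (j := l) hμ.1)
    have h4 := hzero hA' (M.mul_mem (M.mul_mem hd hA') (M.inv_mem hd))
      (χ := (μ - 1) • ψ + Pi.single l (μ * (μ - 1) * ψ l)) fun x => by
        obtain ⟨x, rfl⟩ : ∃ x', x = (homGL k μ hμ.1 * homGL l μ⁻¹ (inv_ne_zero hμ.1)).1 *ᵥ x' :=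
          ⟨_, (GL_mulVec_inv_mulVec _ x).symm⟩
        rw [GL_mul_mulVec _ _⁻¹, GL_inv_mulVec_mulVec]
        simp only [GL_mul_mulVec, h3, homGL_mulVec]
        have := hμ.1
        simp [hl.1, hl.2.1, hl.2.2, Ne.symm hl.2.1, Ne.symm hl.2.2, i.2, j.2, i.2.symm, hψk]
        match_scalars <;> field_simp <;> ring
    ext s
    by_cases hs : s = l
    · have h6 := congrFun h4 l
      simp only [Pi.add_apply, Pi.smul_apply, Pi.single_eq_same, smul_eq_mul, Pi.zero_apply] at h6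
      rw [hs]
      exact mul_left_cancel₀ (mul_ne_zero (sub_ne_zero.2 hμ.2.1)
        fun h0 : μ + 1 = 0 => hμ.2.2 (eq_neg_of_add_eq_zero_left h0))
        (by rw [Pi.zero_apply]; linear_combination h6)
    · simpa [hs, sub_eq_zero, hμ.2.1] using congrFun h4 s
  exact hne (specialLinear_le_of_mono_root (by omega) hM hij' hc
    (Tv.of_mulVec hA' (by simp [hij']) fun x => by simp [h3, hψ]))

theorem mem_mono_of_col' [Fintype F] (h5 : 5 ≤ Fintype.card F) (hn : 4 ≤ Fintype.card ι)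
    (hM : monoGL ι F ⊓ specialLinear ι F ≤ M) (hMS : M ≤ specialLinear ι F)
    (hne : ¬ specialLinear ι F ≤ M) {A : GL ι F} (hA : A ∈ M) {j k : ι}
    (hk : ∀ i, i ≠ k → A.1 i j = 0) : A ∈ monoGL ι F := by
  obtain ⟨h, hh, h1, -⟩ := exists_mono (F := F) (Equiv.swap j k) 1 (by simp) k
  have h2 : ∀ l, l ≠ j → h.1 l k = 0 := fun l hl => by
    obtain ⟨l, rfl⟩ := (Equiv.swap j k).surjective l
    have hl' : l ≠ k := fun h0 => hl (by simp [h0])
    rw [← GL_col, h1 _ l hl']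
    simp [hl']
  have := mem_mono_of_col_aux' h5 hn hM hMS hne (M.mul_mem hA (hM hh)) (k := k) fun i hi => by
    rw [← GL_col, GL_mul_mulVec, mulVec_single_of_col h2, mulVec_smul, Pi.smul_apply, GL_col,
      hk i hi, smul_zero]
  exact (Subgroup.mul_mem_cancel_right _ hh.1).1 this

theorem not_two_quad [Fintype F] (h7 : 6 ≤ Fintype.card F) {A B C A' B' C' : F} (hA : A ≠ 0)
    (hA' : A' ≠ 0)
    (h : ∀ x : F, x ≠ 0 → A * x ^ 2 + B * x + C = 0 ∨ A' * x ^ 2 + B' * x + C' = 0) : False := by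
  classical
  have key : ∀ {A B C : F}, A ≠ 0 →
      (Finset.univ.filter fun x : F => A * x ^ 2 + B * x + C = 0).card ≤ 2 := fun hA => by
    by_contra! hc
    obtain ⟨x, hx, y, hy, z, hz, h1, h2, h3⟩ := Finset.two_lt_card.1 hc
    simp only [Finset.mem_filter] at hx hy hz
    exact hA (quad_eq_zero h1 h2 h3 hx.2 hy.2 hz.2)
  have h1 := key (B := B) (C := C) hA
  have h2 := key (B := B') (C := C') hA'
  have h3 := Finset.card_le_card (s := Finset.univ.erase (0 : F))
    (t := (Finset.univ.filter fun x : F => A * x ^ 2 + B * x + C = 0) ∪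
      Finset.univ.filter fun x : F => A' * x ^ 2 + B' * x + C' = 0) fun x hx => by
    simpa using h x (Finset.ne_of_mem_erase hx)
  rw [Finset.card_erase_of_mem (Finset.mem_univ _), Finset.card_univ] at h3
  have h4 := h3.trans (Finset.card_union_le _ _)
  omega

theorem exists_pow_four_ne [Fintype F] (h7 : 6 ≤ Fintype.card F) : ∃ a : F, a ≠ 0 ∧ a ^ 4 ≠ 1 := by
  by_contra! h
  exact not_two_quad h7 (A := 1) (B := 0) (C := -1) (A' := 1) (B' := 0) (C' := 1) one_ne_zero
    one_ne_zero fun x hx => mul_eq_zero.1 (by linear_combination h x hx)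

theorem exists_dg (c : ι → F) (hc : ∏ i, c i = 1) :
    ∃ t ∈ monoGL ι F ⊓ specialLinear ι F, t.1 = diagonal c :=
  ⟨GeneralLinearGroup.mkOfDetNeZero (diagonal c) (by simp [hc]),
    ⟨fun j => ⟨j, fun l hl => by simp [hl]⟩, mem_specialLinear.2 (by simp [hc])⟩, rfl⟩

theorem univ_eq_four (hn : Fintype.card ι = 4) {a b c d : ι} (h1 : a ≠ b) (h2 : a ≠ c)
    (h3 : a ≠ d) (h4 : b ≠ c) (h5 : b ≠ d) (h6 : c ≠ d) : (Finset.univ : Finset ι) = {a, b, c, d} :=
  (Finset.eq_univ_of_card _ (by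
    rw [hn, Finset.card_eq_four]
    exact ⟨a, b, c, d, h1, h2, h3, h4, h5, h6, rfl⟩)).symm

theorem exists_others (hn : Fintype.card ι = 4) {a b : ι} (h : a ≠ b) : ∃ c d, a ≠ c ∧ a ≠ d ∧
    b ≠ c ∧ b ≠ d ∧ c ≠ d ∧ (∀ f : ι → F, ∑ i, f i = f a + f b + f c + f d) ∧
      ∀ f : ι → F, ∏ i, f i = f a * f b * f c * f d := by
  obtain ⟨c, hc⟩ := exists_notMem_list [a, b] (by simp; omega)
  obtain ⟨d, hd⟩ := exists_notMem_list [a, b, c] (by simp; omega)
  simp only [List.mem_cons, List.not_mem_nil, or_false, not_or] at hc hd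
  have h1 := Ne.symm hc.1
  have h2 := Ne.symm hd.1
  have h3 := Ne.symm hc.2
  have h4 := Ne.symm hd.2.1
  have h5 := Ne.symm hd.2.2
  refine ⟨c, d, h1, h2, h3, h4, h5, fun f => ?_, fun f => ?_⟩ <;>
    rw [univ_eq_four hn h h1 h2 h3 h4 h5] <;> simp [h, h1, h2, h3, h4, h5, add_assoc, mul_assoc]

section Mono

variable [Fintype F] (h7 : 6 ≤ Fintype.card F) (hM : monoGL ι F ⊓ specialLinear ι F ≤ M)
  (hA : ∀ g ∈ M, ∀ j k, (∀ i, i ≠ k → g.1 i j = 0) → g ∈ monoGL ι F)
include h7 hM hA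

theorem eq_of_zeros {g : GL ι F} (hg : g ∈ M) (hgm : g ∉ monoGL ι F) {k l s : ι}
    (hk : g.1 k s = 0) (hl : g.1 l s = 0) : k = l := by
  by_contra hkl
  have hy : ∀ (c : F) (hc : c ≠ 0) i j,
      (g⁻¹ * (homGL k c hc * homGL l c⁻¹ (inv_ne_zero hc)) * g).1 i j = (1 : Matrix ι ι F) i j +
        (c⁻¹ - 1) * g.1 l j * (g⁻¹).1 i l + (c - 1) * g.1 k j * (g⁻¹).1 i k := fun c hc i j => by
    rw [← GL_col, GL_mul_mulVec, GL_mul_mulVec, GL_mul_mulVec]
    simp only [homGL_mulVec, mulVec_add, mulVec_smul, GL_inv_mulVec_mulVec,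
      Pi.add_apply, Pi.smul_apply, GL_col, Pi.single_eq_of_ne hkl]
    simp [Pi.single_apply, one_apply, add_right_comm]
  obtain ⟨j, hj⟩ := exists_row_ne_zero g k
  have hP : ∀ c : F, c ≠ 0 → ∃ π, ∀ i, i ≠ π → g.1 k j * (g⁻¹).1 i k * c ^ 2 +
      ((1 : Matrix ι ι F) i j - g.1 k j * (g⁻¹).1 i k - g.1 l j * (g⁻¹).1 i l) * c +
        g.1 l j * (g⁻¹).1 i l = 0 := fun c hc => by
    obtain ⟨π, hπ⟩ := hA _ (M.mul_mem (M.mul_mem (M.inv_mem hg) (hM (homGL_mul_mem (i := k)
      (j := l) hc))) hg) s s (fun i hi => by simp only [hy]; simp [hk, hl, hi]) j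
    refine ⟨π, fun i hi => ?_⟩
    have := hπ i hi
    rw [hy] at this
    field_simp at this
    linear_combination this
  obtain ⟨p, -, hp⟩ : ∃ p, p ≠ k ∧ (g⁻¹).1 p k ≠ 0 := by
    by_contra! hc
    exact hgm ((Subgroup.inv_mem_iff _).1 (hA _ (M.inv_mem hg) k k hc))
  obtain ⟨p', hpp, hp'⟩ : ∃ p', p' ≠ p ∧ (g⁻¹).1 p' k ≠ 0 := by
    by_contra! hc
    exact hgm ((Subgroup.inv_mem_iff _).1 (hA _ (M.inv_mem hg) k p hc))
  exact not_two_quad h7 (mul_ne_zero hj hp) (mul_ne_zero hj hp') fun c hc => by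
    obtain ⟨π, hπ⟩ := hP c hc
    by_cases h : p = π
    · exact Or.inr (hπ p' (h ▸ hpp))
    · exact Or.inl (hπ p h)

variable (hn : Fintype.card ι = 4)
include hn

theorem ne_zero_four {g : GL ι F} (hg : g ∈ M) (hgm : g ∉ monoGL ι F) (k s : ι) :
    g.1 k s ≠ 0 := fun hk => by
  obtain ⟨a, ha, ha4⟩ := exists_pow_four_ne h7
  obtain ⟨l, hl⟩ := exists_notMem_list [k] (by simp; omega)
  obtain ⟨c, d, h1, h2, h3, h4, h5, -, h6⟩ := exists_others (F := F) hn (a := k) (b := l)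
    (by simpa [eq_comm] using hl)
  obtain ⟨t, ht, ht'⟩ := exists_dg (fun i => if i = k then a⁻¹ ^ 3 else a) (by
    simp only [List.mem_singleton] at hl
    simp [h6, hl, h1.symm, h2.symm]
    field_simp)
  have hy : ∀ i j, (g⁻¹ * t * g).1 i j =
      a * (1 : Matrix ι ι F) i j + (a⁻¹ ^ 3 - a) * g.1 k j * (g⁻¹).1 i k := fun i j => by
    have : ∀ x, t.1 *ᵥ x = a • x + ((a⁻¹ ^ 3 - a) * x k) • Pi.single k 1 := fun x => by
      ext i
      by_cases h : i = k <;> simp [ht', mulVec_diagonal, h]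
      ring
    rw [← GL_col, GL_mul_mulVec, GL_mul_mulVec, this]
    simp only [mulVec_add, mulVec_smul, GL_inv_mulVec_mulVec, Pi.add_apply, Pi.smul_apply, GL_col]
    simp [Pi.single_apply, one_apply]
  obtain ⟨j, hj⟩ := exists_row_ne_zero g k
  obtain ⟨π, hπ⟩ := hA _ (M.mul_mem (M.mul_mem (M.inv_mem hg) (hM ht)) hg) s s
    (fun i hi => by simp only [hy]; simp [hk, hi]) j
  obtain ⟨p, hp⟩ := exists_notMem_list [j, π] (by simp; omega)
  obtain ⟨p', hp'⟩ := exists_notMem_list [j, π, p] (by simp; omega)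
  simp only [List.mem_cons, List.not_mem_nil, or_false, not_or] at hp hp'
  have h0 : a⁻¹ ^ 3 - a ≠ 0 := fun h0 => ha4 (by field_simp at h0; linear_combination -h0)
  have key : ∀ i, i ≠ j → i ≠ π → (g⁻¹).1 i k = 0 := fun i h1 h2 => by
    have := hπ i h2
    rw [hy] at this
    rw [one_apply_ne h1, mul_zero, zero_add] at this
    exact (mul_eq_zero.1 this).resolve_left (mul_ne_zero h0 hj)
  exact hp'.2.2 (eq_of_zeros h7 hM hA (M.inv_mem hg) (fun h => hgm ((Subgroup.inv_mem_iff _).1 h))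
    (key _ hp'.1 hp'.2.1) (key _ hp.1 hp.2))

theorem const_or {g : GL ι F} (hg : g ∈ M) (hgm : g ∉ monoGL ι F) {c : ι → F} (hc : ∏ i, c i = 1)
    {i j : ι} (h : ∑ k, (g⁻¹).1 i k * g.1 k j * c k = 0) : (∀ k l, c k = c l) ∨
      (∑ k, c k = 0 ∧ ∀ s, (∀ k, c k ^ 2 + 1 = s * c k) → s = 0) := by
  obtain ⟨t, ht, ht'⟩ := exists_dg c hc
  have hy := M.mul_mem (M.mul_mem (M.inv_mem hg) (hM ht)) hg
  have h1 : g⁻¹ * t * g ∈ monoGL ι F := by
    by_contra h1
    refine ne_zero_four h7 hM hA hn hy h1 i j ?_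
    rw [← h]
    simp only [Units.val_mul, ht', mul_apply, diagonal_apply, mul_ite, mul_zero,
      Finset.sum_ite_eq', Finset.mem_univ, if_true]
    exact Finset.sum_congr rfl fun k _ => by ring
  refine or_iff_not_imp_left.2 fun h2 => ?_
  have h3 : ∀ j, (g⁻¹ * t * g).1 j j = 0 := fun j => by
    by_contra h3
    obtain ⟨π, hπ⟩ := h1 j
    obtain rfl : j = π := by_contra fun h4 => h3 (hπ j h4)
    have h4 := congrArg (g.1 *ᵥ ·) (mulVec_single_of_col hπ)
    simp only [GL_mul_mulVec, GL_mulVec_inv_mulVec, mulVec_smul] at h4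
    have h5 : ∀ k, c k = (g⁻¹ * t * g).1 j j := fun k => by
      have := congrFun h4 k
      rw [ht', mulVec_diagonal, Pi.smul_apply, GL_col, smul_eq_mul] at this
      exact mul_right_cancel₀ (ne_zero_four h7 hM hA hn hg hgm k j) this
    exact h2 fun k l => (h5 k).trans (h5 l).symm
  refine ⟨?_, fun s hs => ?_⟩
  · rw [← trace_diagonal, ← ht', ← trace_units_conj' g t.1]
    exact Finset.sum_eq_zero fun j _ => h3 j
  obtain ⟨π, hπ⟩ := h1 j
  have h4 : ∀ x, t.1 *ᵥ (t.1 *ᵥ x) + x = s • t.1 *ᵥ x := fun x => by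
    ext k
    simp only [ht', mulVec_diagonal, Pi.add_apply, Pi.smul_apply, smul_eq_mul]
    linear_combination x k * hs k
  have h5 : (g⁻¹ * t * g).1 *ᵥ ((g⁻¹ * t * g).1 *ᵥ Pi.single j 1) + Pi.single j 1 =
      s • (g⁻¹ * t * g).1 *ᵥ Pi.single j 1 := by
    simpa only [GL_mul_mulVec, GL_mulVec_inv_mulVec, mulVec_add, mulVec_smul,
      GL_inv_mulVec_mulVec] using congrArg ((g⁻¹).1 *ᵥ ·) (h4 (g.1 *ᵥ Pi.single j 1))
  have h6 := ne_zero_of_col hπ
  have h8 : π ≠ j := fun h0 => h6 (h0 ▸ h3 π)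
  rw [mulVec_single_of_col hπ, mulVec_smul] at h5
  have := congrFun h5 π
  simp only [Pi.add_apply, Pi.smul_apply, GL_col, h3, Pi.single_eq_of_ne h8, Pi.single_eq_same,
    smul_eq_mul, mul_zero, zero_add, mul_one] at this
  exact (mul_eq_zero.1 this.symm).resolve_right h6

theorem mem_mono_four {g : GL ι F} (hg : g ∈ M) : g ∈ monoGL ι F := by
  by_contra hgm
  obtain ⟨i, j, hij⟩ := (Fintype.one_lt_card_iff_nontrivial.1 (by omega : 1 < Fintype.card ι)
    ).exists_pair_ne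
  set x : ι → F := fun k => (g⁻¹).1 i k * g.1 k j with hx
  have h0 : ∀ k, x k ≠ 0 := fun k => mul_ne_zero (ne_zero_four h7 hM hA hn (M.inv_mem hg)
    (fun h => hgm ((Subgroup.inv_mem_iff _).1 h)) _ _) (ne_zero_four h7 hM hA hn hg hgm _ _)
  have h1 : ∑ k, x k = 0 := by
    have := congrFun (congrFun g.inv_mul i) j
    rwa [one_apply_ne hij] at this
  have key : ∀ c : ι → F, ∏ i, c i = 1 → ∑ k, x k * c k = 0 → _ := fun c hc h =>
    const_or h7 hM hA hn hg hgm hc h
  have h2 : ∀ k l, k ≠ l → x l = x k ∨ x k + x l = 0 := fun k l hkl => by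
    obtain ⟨c, d, a1, a2, a3, a4, a5, a6, a7⟩ := exists_others (F := F) hn hkl
    have b1 := h0 k
    have b2 := h0 l
    rcases key (fun m => if m = k then x l / x k else if m = l then x k / x l else 1)
      (by simp [a7, hkl.symm, a1.symm, a2.symm, a3.symm, a4.symm, b1, b2]) (by
        rw [← h1, a6, a6]
        simp [hkl.symm, a1.symm, a2.symm, a3.symm, a4.symm]
        field_simp
        ring) with h | ⟨h, -⟩
    · have := h k c
      simp only [if_true, a1.symm, a3.symm, if_false] at this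
      exact Or.inl (by field_simp at this; exact this)
    · rw [a6] at h
      simp only [if_true, hkl.symm, a1.symm, a2.symm, a3.symm, a4.symm, if_false] at h
      field_simp at h
      exact Or.inr (pow_eq_zero_iff two_ne_zero |>.1 (by linear_combination h))
  obtain ⟨k, l, hkl, h3⟩ : ∃ k l, k ≠ l ∧ x k + x l = 0 := by
    by_contra! h3
    obtain ⟨c, d, a1, a2, -, -, -, a6, -⟩ := exists_others (F := F) hn hij
    have b1 := (h2 _ _ hij).resolve_right (h3 _ _ hij)
    rw [a6, b1, (h2 _ _ a1).resolve_right (h3 _ _ a1), (h2 _ _ a2).resolve_right (h3 _ _ a2)] at h1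
    exact h3 _ _ hij (pow_eq_zero_iff two_ne_zero |>.1 (by rw [b1]; linear_combination x i * h1))
  obtain ⟨c, d, a1, a2, a3, a4, a5, a6, a7⟩ := exists_others (F := F) hn hkl
  obtain ⟨u, hu, hu4⟩ := exists_pow_four_ne h7
  rcases key (fun m => if m = k ∨ m = l then u else u⁻¹)
    (by simp [a7, a1.symm, a2.symm, a3.symm, a4.symm, hu]) (by
      rw [a6] at h1 ⊢
      simp [a1.symm, a2.symm, a3.symm, a4.symm]
      linear_combination (u - u⁻¹) * h3 + u⁻¹ * h1) with h | ⟨-, h⟩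
  · have := h k c
    simp only [true_or, if_true, a1.symm, a3.symm, or_self, if_false] at this
    field_simp at this
    exact hu4 (by linear_combination (u ^ 2 + 1) * this)
  · have := h (u + u⁻¹) fun m => by beta_reduce; split_ifs <;> field_simp <;> ring
    field_simp at this
    exact hu4 (by linear_combination (u ^ 2 - 1) * this)

end Mono

theorem isMaximalIn_lines_four [Fintype F] (hn : Fintype.card ι = 4) (h7 : 6 ≤ Fintype.card F)
    {t : ℕ} {D : Fin t → Submodule F (ι → F)} (hD : IsMDecomposition 1 D) :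
    IsMaximalIn (specialLinear ι F) (decompositionStabilizer D ⊓ specialLinear ι F) := by
  have h3 := not_specialLinear_le_decomp hD
  obtain ⟨P, hP⟩ := exists_decompositionStabilizer_eq hD
  rw [hP] at h3 ⊢
  refine isMaximalIn_conj (isMaximalIn_inf (fun h => h3 fun x hx => ?_) fun M hM hMS g hg hgm =>
    by_contra fun hne => hgm (mem_mono_four h7 hM (fun g hg j k h =>
      mem_mono_of_col' (by omega) hn.ge hM hMS hne hg h) hn hg)) P
  exact ⟨_, h (normal_specialLinear.conj_mem _ hx P⁻¹), by simp [mul_assoc]⟩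

end Cfsg.Lib.Linear
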