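import Cfsg.Agent.Lib.Linear.Four1
import Cfsg.Agent.Lib.Linear.FormMax

/-!
# Pairs of planes and similarity groups in `SL 4 q`
-/

namespace Cfsg.Lib.Linear

open Matrix Module Cfsg.Geo Cfsg.Lib.Asch
open scoped MatrixGroups

variable {ι : Type} [Fintype ι] [DecidableEq ι] {F : Type*} [Field F] {M : Subgroup (GL ι F)}

theorem five_eq_zero [Fintype F] (h4 : 4 ≤ Fintype.card F) (h : ∀ a : F, a ≠ 0 → a ^ 4 = 1) :
    (5 : F) = 0 := by
  obtain ⟨x, hx⟩ := exists_notMem_list [(0 : F), 1, -1] (by simp; omega)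
  simp only [List.mem_cons, List.not_mem_nil, or_false, not_or] at hx
  have h1 : x + 1 ≠ 0 := fun h0 => hx.2.2 (eq_neg_of_add_eq_zero_left h0)
  have h2 : x ^ 2 + 1 = 0 := mul_left_cancel₀ (mul_ne_zero h1 (sub_ne_zero.2 hx.2.1))
    (by linear_combination h x hx.1)
  linear_combination (x ^ 2 + 4 * x + 5) * h2 - h _ h1

section Planes

variable {t m : ℕ} {D : Fin t → Submodule F (ι → F)}

theorem exists_loc_tv_four [Fintype F] (hn : Fintype.card ι = 4) (h4 : 4 ≤ Fintype.card F)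
    (hD : IsMDecomposition m D) (hm : 2 ≤ m)
    (hM : decompositionStabilizer D ⊓ specialLinear ι F ≤ M) {v φ : ι → F} (hφ : φ ≠ 0)
    (h : Tv M v φ) : ∃ k, ∃ ψ ∈ locDual D k, ψ ≠ 0 ∧ Tv M v ψ := by
  obtain ⟨p, hp⟩ := exists_isProj hD
  obtain ⟨k, u, hu, hφu⟩ : ∃ k, ∃ u ∈ D k, φ ⬝ᵥ u ≠ 0 := by
    by_contra! hc
    exact hφ (dotProduct_eq _ _ fun x => by
      rw [zero_dotProduct, ← hp.sum x, dotProduct_sum]
      exact Finset.sum_eq_zero fun i _ => hc i _ (hp.mem i x))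
  refine ⟨k, ?_⟩
  have loc : ∀ k, ∃ ψ ∈ locDual D k, ψ ⬝ᵥ v = 0 ∧ ∃ w ∈ D k, ψ ⬝ᵥ w = 1 := fun k => by
    obtain ⟨w, hw, hw'⟩ := exists_notMem_span_decomp hD hm k (p k v)
    obtain ⟨ψ, hψ, h1, h2⟩ := hp.exists_loc_of_notMem (hp.mem k v) hw hw'
    exact ⟨ψ, hψ, by rw [hp.dot hψ, h1], w, hw, h2⟩
  obtain ⟨l, hl⟩ := exists_notMem_list [k] (by have := hD.two_le; simp; omega)
  rw [List.mem_singleton] at hl
  obtain ⟨ψ, hψ, hψv, w, hw, hψw⟩ := loc k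
  obtain ⟨x, hx, h1, h2⟩ := exists_ne_ne_dot ⟨u, hu, hφu⟩ ⟨w, hw, hψw ▸ one_ne_zero⟩
  obtain ⟨χ, hχ, hχv, y, hy, h3⟩ := loc l
  have step : ∀ a b κ : F, κ ^ 4 * a * b = 1 →
      Tv M v (((a - 1) * (φ ⬝ᵥ x / ψ ⬝ᵥ x)) • ψ + ((b - 1) * φ ⬝ᵥ y) • χ) := by
    intro a b κ hκ
    have h0 := left_ne_zero_of_mul_eq_one hκ
    have hκ0 : κ ≠ 0 := fun h5 => h0 (by simp [h5])
    have e1 : 1 + (((a - 1) / ψ ⬝ᵥ x) • ψ) ⬝ᵥ x ≠ 0 := by simpa [h2] using right_ne_zero_of_mul h0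
    have e2 : 1 + ((b - 1) • χ) ⬝ᵥ y ≠ 0 := by simpa [h3] using right_ne_zero_of_mul_eq_one hκ
    have e3 : ∀ z, (scGL ι (Units.mk0 κ hκ0)).1 *ᵥ z = κ • z := fun z => by
      simp [coe_scGL, Matrix.smul_mulVec]
    have hr := M.inv_mem (hM (x := scGL ι (Units.mk0 κ hκ0) * (rankOneGL x _ e1 * rankOneGL y _ e2))
      ⟨Subgroup.mul_mem _ (mem_decompositionStabilizer_of_le hD fun i => ⟨i, fun z hz => by
        rw [e3]
        exact (D i).smul_mem _ hz⟩) (Subgroup.mul_mem _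
      (mem_decomp_of_rankOne hD hx ((locDual D k).smul_mem _ hψ) (rankOneGL_mulVec _ _ e1))
      (mem_decomp_of_rankOne hD hy ((locDual D l).smul_mem _ hχ) (rankOneGL_mulVec _ _ e2))),
      mem_specialLinear.2 (by
        rw [Units.val_mul, Units.val_mul, det_mul, det_mul, det_rankOneGL, det_rankOneGL, coe_scGL,
          det_smul, hn, ← hκ]
        simp [h2, h3, mul_assoc])⟩)
    have h5 := h.conj' hr (ψ := κ • (φ + (((a - 1) * (φ ⬝ᵥ x / ψ ⬝ᵥ x)) • ψ +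
      ((b - 1) * φ ⬝ᵥ y) • χ))) fun z => by
        conv_rhs => rw [← GL_mulVec_inv_mulVec (scGL ι (Units.mk0 κ hκ0) *
          (rankOneGL x _ e1 * rankOneGL y _ e2)) z]
        simp only [GL_mul_mulVec (scGL _ _), GL_mul_mulVec (rankOneGL x _ e1), rankOneGL_mulVec,
          add_dotProduct, e3, dotProduct_add, smul_dotProduct, dotProduct_smul, hψ l hl y hy,
          smul_eq_mul]
        ring
    have h6 : (scGL ι (Units.mk0 κ hκ0) * (rankOneGL x _ e1 * rankOneGL y _ e2)).1 *ᵥ (κ⁻¹ • v) =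
        v := by
      simp only [GL_mul_mulVec, rankOneGL_mulVec, smul_dotProduct, dotProduct_smul, hψv, hχv,
        smul_zero, zero_smul, add_zero, e3, smul_inv_smul₀ hκ0]
    conv at h5 => rw [← h6, GL_inv_mulVec_mulVec]
    have h7 := h5.of_smul_left (inv_ne_zero hκ0)
    rw [inv_smul_smul₀ hκ0] at h7
    simpa only [add_sub_cancel_left] using h7.sub_right h
  have hψ0 : ψ ≠ 0 := fun h0 => by simp [h0] at hψw
  by_cases h5 : ∀ a : F, a ≠ 0 → a ^ 4 = 1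
  · have h6 := five_eq_zero h4 h5
    refine ⟨(-(φ ⬝ᵥ x / ψ ⬝ᵥ x)) • ψ, (locDual D k).smul_mem _ hψ,
      smul_ne_zero (neg_ne_zero.2 (div_ne_zero h1 h2)) hψ0, ?_⟩
    convert (step 2 3 1 (by linear_combination h6)).add_right (step (-1) (-1) 1 (by ring)) using 1
    module
  · push Not at h5
    obtain ⟨a, ha, ha4⟩ := h5
    refine ⟨_, (locDual D k).smul_mem ((a ^ 4 - 1) * (φ ⬝ᵥ x / ψ ⬝ᵥ x)) hψ,
      smul_ne_zero (mul_ne_zero (sub_ne_zero.2 ha4) (div_ne_zero h1 h2)) hψ0, ?_⟩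
    simpa using step (a ^ 4) 1 a⁻¹ (by field_simp)

theorem specialLinear_le_of_planes [Fintype F] (hn : Fintype.card ι = 4)
    (h4 : 4 ≤ Fintype.card F) (hD : IsMDecomposition m D) (hm : 2 ≤ m)
    (hM : decompositionStabilizer D ⊓ specialLinear ι F ≤ M) {g : GL ι F} (hg : g ∈ M)
    (hgD : g ∉ decompositionStabilizer D) : specialLinear ι F ≤ M := by
  obtain ⟨p, hp⟩ := exists_isProj hD
  obtain ⟨i, x, hx, hx'⟩ : ∃ i, ∃ x ∈ D i, ∀ j, g.1 *ᵥ x ∉ D j := by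
    by_contra! hc
    refine hgD (mem_decompositionStabilizer_of_le hD fun i => ?_)
    obtain ⟨x, hx, hx0⟩ := (Submodule.ne_bot_iff _).1 (ne_bot_of_decomp hD i)
    obtain ⟨j, hj⟩ := hc i x hx
    refine ⟨j, fun y hy => ?_⟩
    obtain ⟨l, hl⟩ := hc i y hy
    obtain ⟨r, hr⟩ := hc i _ ((D i).add_mem hx hy)
    rw [mulVec_add] at hr
    by_cases h1 : r = j
    · exact ((D j).add_mem_iff_right hj).1 (h1 ▸ hr)
    by_cases h2 : l = j
    · exact h2 ▸ hl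
    have := hp.ne j r (Ne.symm h1) _ hr
    rw [map_add, hp.self j _ hj, hp.ne j l (Ne.symm h2) _ hl, add_zero] at this
    exact absurd this (GL_mulVec_ne_zero g hx0)
  obtain ⟨w, hw, hw'⟩ := exists_notMem_span_decomp hD hm i x
  obtain ⟨φ, hφ, h1, h2⟩ := hp.exists_loc_of_notMem hx hw hw'
  obtain ⟨k, ψ, hψ, hψ0, h3⟩ := exists_loc_tv_four hn h4 hD hm hM
    (vecMul_GL_ne_zero _ fun h0 => by simp [h0] at h2) ((tv_loc hD hM hx hφ h1).conj hg)
  obtain ⟨l, hl, h8⟩ : ∃ l, l ≠ k ∧ p l (g.1 *ᵥ x) ≠ 0 := by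
    by_contra! hc
    refine hx' k ?_
    rw [← hp.sum (g.1 *ᵥ x), Finset.sum_eq_single k (fun l _ hl => hc l hl) (by simp)]
    exact hp.mem k _
  obtain ⟨u, hu, hu'⟩ := exists_notMem_span_decomp hD hm l (p l (g.1 *ᵥ x))
  have hu0 : u ≠ 0 := fun h0 => hu' (h0 ▸ Submodule.zero_mem _)
  obtain ⟨χ, hχ, h5, h6⟩ := hp.exists_loc_of_notMem hu (hp.mem l (g.1 *ᵥ x)) fun hm => by
    obtain ⟨c, hc⟩ := Submodule.mem_span_singleton.1 hm
    exact hu' (Submodule.mem_span_singleton.2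
      ⟨c⁻¹, by rw [← hc, inv_smul_smul₀ fun h0 => h8 (by simp [← hc, h0])]⟩)
  have h7 := h3.comm_left (tv_loc hD hM hu hχ h5) (hψ l hl u hu)
  rw [hp.dot hχ, h6, one_smul] at h7
  exact specialLinear_le_of_cross hD hm hM hl hu hu0 hψ hψ0 h7

theorem isMaximalIn_planes_four [Fintype F] (hn : Fintype.card ι = 4) (h4 : 4 ≤ Fintype.card F)
    (hD : IsMDecomposition 2 D) :
    IsMaximalIn (specialLinear ι F) (decompositionStabilizer D ⊓ specialLinear ι F) :=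
  isMaximalIn_inf (not_specialLinear_le_decomp hD) fun _ hM _ _ hg hgD =>
    specialLinear_le_of_planes hn h4 hD le_rfl hM hg hgD

end Planes

end Cfsg.Lib.Linear
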