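import Cfsg.Agent.Lib.Linear.Four2

/-!
# Similarity groups of forms are maximal in `SL n q`, `n ≥ 4`
-/

namespace Cfsg.Lib.Linear

open Matrix Module Cfsg.Geo Cfsg.Lib.Asch
open scoped MatrixGroups

variable {ι : Type} [Fintype ι] [DecidableEq ι] {F : Type*} [Field F] {σ : F →+* F} {ε : F}
  {f : (ι → F) → (ι → F) → F} {M : Subgroup (GL ι F)}

theorem mem_sim_of_scalar (h : SForm σ ε f) {g : GL ι F} {c : F} {y₀ : ι → F} (hy0 : y₀ ≠ 0)
    (hc : ∀ y, (adj σ f g * g.1) *ᵥ y = c • y) : g ∈ similarityGroup f := by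
  have hk' : ∀ x y, f (g.1 *ᵥ x) (g.1 *ᵥ y) = σ c * f x y := fun x y => by
    rw [h.adj_spec, mulVec_mulVec, hc, h.smul_right]
  have hc0 : σ c ≠ 0 := fun h0 => GL_mulVec_ne_zero g hy0 (h.nondeg _ fun x => by
    rw [← GL_mulVec_inv_mulVec g x, hk', h0, zero_mul])
  exact ⟨Units.mk0 _ hc0, hk'⟩

theorem exists_eig_of_perp (h : SForm σ ε f) {g : GL ι F} {y : ι → F}
    (hy : ∀ x, f x y = 0 → f (g.1 *ᵥ x) (g.1 *ᵥ y) = 0) :
    ∃ c : F, c • y = (adj σ f g * g.1) *ᵥ y :=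
  Submodule.mem_span_singleton.1 (mem_of_perp h fun x hx => by
    rw [h.map_eq_zero, ← mulVec_mulVec, ← h.adj_spec]
    exact hy x (h.map_eq_zero.1 (hx y (Submodule.mem_span_singleton_self y))))

theorem exists_perp_ne (h : SForm σ ε f) {v e : ι → F} (hv : v = 0 ∨ f v v ≠ 0) (he0 : e ≠ 0)
    (he : f e v = 0) : ∃ w ∈ dotKer (dv σ f v), dv σ f e ⬝ᵥ w ≠ 0 := by
  by_contra! hc
  obtain ⟨c, rfl⟩ := Submodule.mem_span_singleton.1 (mem_of_perp h (W := F ∙ v) (x := e)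
    fun y hy => by
      rw [h.map_eq_zero, ← dv_dot h]
      refine hc y ?_
      rw [mem_dotKer, dv_dot h, h.map_eq_zero]
      exact hy v (Submodule.mem_span_singleton_self v))
  rcases hv with rfl | hv
  · simp at he0
  · rw [h.smul_left, mul_eq_zero, or_iff_left hv] at he
    simp [he] at he0

/-! ### The symplectic case -/

theorem specialLinear_le_of_symp' (h : SForm (RingHom.id F) (-1) f) (ha : ∀ x, f x x = 0)
    (hM : iso f ⊓ specialLinear ι F ≤ M) {g : GL ι F} (hg : g ∈ M)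
    (hgf : g ∉ similarityGroup f) : specialLinear ι F ≤ M := by
  obtain ⟨x, y, hxy, hne⟩ : ∃ x y, f x y = 0 ∧ f (g.1 *ᵥ x) (g.1 *ᵥ y) ≠ 0 := by
    by_contra! hc
    obtain ⟨c, hc'⟩ := (toLin' (adj (RingHom.id F) f g * g.1)
      ).exists_eq_smul_id_of_forall_notLinearIndependent fun y hy => by
        obtain ⟨c, h1⟩ := exists_eig_of_perp h (y := y) fun x => hc x y
        simpa using (LinearIndependent.pair_iff.1 hy c (-1) (by simp [h1])).2
    by_cases h0 : ∃ y : ι → F, y ≠ 0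
    · obtain ⟨y, hy⟩ := h0
      exact hgf (mem_sim_of_scalar h hy fun y => LinearMap.congr_fun hc' y)
    · push Not at h0
      exact hgf ⟨1, fun x y => by simp [h0 x, h.zero_left]⟩
  have hy : y ≠ 0 := by
    rintro rfl
    exact hne (by rw [mulVec_zero, h.zero_right])
  set v := g.1 *ᵥ y
  obtain ⟨a, ha'⟩ := exists_dv h (dv (RingHom.id F) f y ᵥ* (g⁻¹).1)
  have hφ : ∀ z, f (g.1 *ᵥ z) a = f z y := fun z => by
    rw [← dv_dot h, ha', vecMul_inv_dot_mulVec, dv_dot h]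
  have ht : Tv M v (dv (RingHom.id F) f a) := by
    simpa [ha'] using (tv_symp h ha hM y 1).conj hg
  refine specialLinear_le_of_irreducible (GL_mulVec_ne_zero g hy) (fun ψ hψ => ?_) fun W hW hW' => ?_
  swap
  · obtain ⟨w, hw, hw0⟩ := (Submodule.ne_bot_iff W).1 hW
    obtain ⟨x, hx⟩ := exists_form_ne_zero h hw0
    refine eq_top_iff.2 (le_of_diff_subset (F := F) (X := ⊤) (W := W.toAddSubgroup)
      (U := (dotKer (dv (RingHom.id F) f w)).toAddSubgroup)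
      (fun hle => hx ((dv_dot h _ _).symm.trans (hle trivial))) fun u _ hu => ?_)
    obtain ⟨k, hk, hk'⟩ := (tv_symp h ha hM u 1).exists_mulVec
    have h1 := W.sub_mem (hW' k hk w hw) hw
    rw [hk', add_sub_cancel_left, one_smul, dv_dot h] at h1
    exact (W.smul_mem_iff fun h0 => hu ((dv_dot h _ _).trans (h.map_eq_zero.1 h0))).1 h1
  obtain ⟨u, rfl⟩ := exists_dv h ψ
  let B : AddSubgroup (ι → F) :=
    { carrier := {b | Tv M v (dv (RingHom.id F) f b)}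
      add_mem' := fun ha hb => by simpa [dv_add h] using Tv.add_right ha hb
      zero_mem' := by simpa [dv_zero h] using Tv.zero_right M v
      neg_mem' := fun ha => by simpa [dv_neg h] using Tv.neg_right ha }
  refine le_of_diff_subset (F := F) (X := (dotKer (dv (RingHom.id F) f v)).toAddSubgroup)
    (U := (dotKer (dv (RingHom.id F) f a)).toAddSubgroup) (W := B) (fun hle => ?_)
    (fun z hz hz' => ?_) ?_
  · have : a ∈ Submodule.span F {v} := mem_of_perp h fun z hz => by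
      rw [h.map_eq_zero, ← dv_dot h]
      refine hle (?_ : dv _ f v ⬝ᵥ z = 0)
      rw [dv_dot h, h.map_eq_zero]
      exact hz v (Submodule.mem_span_singleton_self v)
    obtain ⟨c, rfl⟩ := Submodule.mem_span_singleton.1 this
    have h1 := hφ x
    rw [hxy, h.smul_right, mul_eq_zero, or_iff_left hne] at h1
    exact hy (h.nondeg _ fun z => by rw [← hφ, h.smul_right, h1, zero_mul])
  · have h1 : dv (RingHom.id F) f a ⬝ᵥ z ≠ 0 := hz'
    have h2 : dv (RingHom.id F) f v ⬝ᵥ z = 0 := hz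
    have := ht.comm_right (tv_symp h ha hM z (dv (RingHom.id F) f a ⬝ᵥ z)⁻¹)
      (by rw [dv_dot h] at h2; simp [dv_dot h, h.map_eq_zero.1 h2])
    rwa [smul_smul, mul_inv_cancel₀ h1, one_smul] at this
  · change dv _ f v ⬝ᵥ u = 0
    rw [dv_dot h] at hψ ⊢
    exact h.map_eq_zero.1 hψ

theorem isMaximalIn_sim_symp' (hf : IsSymplecticForm f) (h4 : 4 ≤ Fintype.card ι) :
    IsMaximalIn (specialLinear ι F) (similarityGroup f ⊓ specialLinear ι F) :=
  isMaximalIn_inf (not_specialLinear_le_sim (sform_of_symplectic hf) h4)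
    fun _ hM _ _ hg hgf => specialLinear_le_of_symp' (sform_of_symplectic hf) hf.alternating
      ((inf_le_inf_right _ iso_le_sim).trans hM) hg hgf

/-! ### The unitary and orthogonal cases -/

/-- `M` induces on the quotient by `v` all transvections with axis `φ`. -/
def Ax (M : Subgroup (GL ι F)) (v φ : ι → F) : Prop :=
  φ ⬝ᵥ v = 0 ∧ ∀ z, φ ⬝ᵥ z = 0 → ∃ A ∈ M, ∃ ψ : ι → F, ψ ⬝ᵥ v = 0 ∧
    ∀ x, A.1 *ᵥ x = x + (φ ⬝ᵥ x) • z + (ψ ⬝ᵥ x) • v

theorem Ax.conj {v φ φ' : ι → F} (h : Ax M v φ) {k : GL ι F} (hk : k ∈ M) (hv : k.1 *ᵥ v = v)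
    (h' : ∀ x, φ' ⬝ᵥ (k.1 *ᵥ x) = φ ⬝ᵥ x) : Ax M v φ' := by
  refine ⟨by rw [← hv, h', h.1], fun z hz => ?_⟩
  obtain ⟨A, hA, ψ, h1, h2⟩ := h.2 ((k⁻¹).1 *ᵥ z) (by rw [← h', GL_mulVec_inv_mulVec, hz])
  refine ⟨k * A * k⁻¹, M.mul_mem (M.mul_mem hk hA) (M.inv_mem hk), ψ ᵥ* (k⁻¹).1,
    by rw [← hv, vecMul_inv_dot_mulVec, h1], fun x => ?_⟩
  obtain ⟨x, rfl⟩ : ∃ x', x = k.1 *ᵥ x' := ⟨_, (GL_mulVec_inv_mulVec _ x).symm⟩
  simp only [GL_mul_mulVec, GL_inv_mulVec_mulVec, h2, mulVec_add, mulVec_smul,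
    GL_mulVec_inv_mulVec, hv, h', vecMul_inv_dot_mulVec]

theorem Ax.exists {v φ χ : ι → F} (h : Ax M v φ) (hχ : χ ⬝ᵥ v = 0) (h1 : χ ∉ F ∙ φ) (s : F) :
    ∃ A ∈ M, A.1 *ᵥ v = v ∧ ∀ x, (χ + s • φ) ⬝ᵥ (A.1 *ᵥ x) = χ ⬝ᵥ x := by
  obtain ⟨z, h2, h3⟩ := exists_dot_of_notMem_span h1
  rw [dotProduct_comm] at h2 h3
  obtain ⟨A, hA, ψ, h4, h5⟩ := h.2 ((-s) • z) (by simp [h2])
  exact ⟨A, hA, by simp [h5, h.1, h4], fun x => by simp [h5, h.1, hχ, h2, h3, mul_comm]⟩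

section Herm

variable (h : TForm σ 1 f) {t : F} (ht : t + σ t = 1)
include h ht

theorem herm_eq_zero {x y : ι → F} (hx : f x x = 0) (hy : f y y = 0)
    (hc : ∀ c : F, f (c • x + y) (c • x + y) = 0) : f x y = 0 := by
  by_contra hw
  have := hc (t / f x y)
  simp only [h.add_left, h.add_right, h.smul_left, h.smul_right, hx, hy, h.herm y x, one_mul,
    ← map_mul, div_mul_cancel₀ _ hw, mul_zero, zero_add, add_zero] at this
  exact one_ne_zero (by linear_combination this - ht : (1 : F) = 0)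

variable (h4 : 4 ≤ Fintype.card ι)
include h4

theorem exists_nonsing_perp {v u a : ι → F} (hv : v = 0 ∨ f v v ≠ 0) (huv : f u v = 0)
    (hav : f a v = 0) (hu : f u u = 0) (hau : f a u ≠ 0) :
    ∃ z, f z v = 0 ∧ f z u = 0 ∧ f z a = 0 ∧ f z z ≠ 0 := by
  by_contra! hc
  have hs := h.toSForm
  have h1 := card_le_finrank_dotKer₃ (dv σ f v) (dv σ f u) (dv σ f a)
  obtain ⟨x, ⟨⟨h2, h3⟩, h5⟩, hx⟩ := (Submodule.ne_bot_iff
    (dotKer (dv σ f v) ⊓ dotKer (dv σ f u) ⊓ dotKer (dv σ f a))).1 fun h0 => by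
      rw [h0, finrank_bot] at h1
      omega
  simp only [SetLike.mem_coe, mem_dotKer, dv_dot hs] at h2 h3 h5
  obtain ⟨α, β, γ, rfl⟩ := Submodule.mem_span_triple.1 (mem_of_perp hs
    (W := Submodule.span F {v, u, a}) (x := x) fun y hy => by
      have a1 := hs.map_eq_zero.1 (hy v (Submodule.subset_span (by simp)))
      have a2 := hs.map_eq_zero.1 (hy u (Submodule.subset_span (by simp)))
      have a3 := hs.map_eq_zero.1 (hy a (Submodule.subset_span (by simp)))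
      exact herm_eq_zero h ht (hc x h2 h3 h5) (hc y a1 a2 a3) fun c => by
        apply hc <;> simp [hs.add_left, hs.smul_left, *])
  simp only [hs.add_left, hs.smul_left, huv, hav, hu, hs.map_eq_zero.1 huv, hs.map_eq_zero.1 hav,
    mul_zero, add_zero, zero_add, mul_eq_zero, hau, or_false] at h2 h3 h5
  rw [h3, zero_mul, add_zero, mul_eq_zero, or_iff_left (mt hs.map_eq_zero.1 hau)] at h5
  apply hx
  rcases hv with rfl | hv
  · simp [h3, h5]
  · simp [h3, h5, h2.resolve_right hv]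

theorem exists_nbr {v e e' : ι → F} (hv : v = 0 ∨ f v v ≠ 0) (h0 : e ≠ 0) (h0' : e' ≠ 0)
    (hev : f e v = 0) (hev' : f e' v = 0) (he : f e e = 0) (he' : f e' e' = 0) :
    ∃ w, f w v = 0 ∧ f w w = 0 ∧ f w e ≠ 0 ∧ f w e' ≠ 0 := by
  have hs := h.toSForm
  by_cases h1 : f e' e = 0
  · obtain ⟨x, hx, h2, h3⟩ := exists_ne_ne_dot (exists_perp_ne hs hv h0 hev)
      (exists_perp_ne hs hv h0' hev')
    simp only [mem_dotKer, dv_dot hs] at hx h2 h3
    obtain ⟨c, hc⟩ := h.exists_sub_singular he h2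
    exact ⟨_, by simp [hs.sub_left, hs.smul_left, hx, hev], hc,
      by simpa [hs.sub_left, hs.smul_left, he],
      by simpa [hs.sub_left, hs.smul_left, hs.map_eq_zero.1 h1]⟩
  · obtain ⟨z, a1, a2, a3, a4⟩ := exists_nonsing_perp h ht h4 hv hev hev' he h1
    obtain ⟨c, hc⟩ := h.exists_sub_singular (x := e' + z) he (by simpa [hs.add_left, a2])
    refine ⟨_, by simp [hs.sub_left, hs.smul_left, hs.add_left, a1, hev, hev'], hc,
      by simpa [hs.sub_left, hs.smul_left, hs.add_left, he, a2], ?_⟩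
    have hc0 : c ≠ 0 := by
      rintro rfl
      simp [hs.add_left, hs.add_right, he', a3, hs.map_eq_zero.1 a3, a4] at hc
    simpa [hs.sub_left, hs.smul_left, hs.add_left, he', a3, hc0] using mt hs.map_eq_zero.1 h1

omit ht in
theorem perp_le_of_singular' {v : ι → F} (hv : v = 0 ∨ f v v ≠ 0) {P : AddSubgroup (ι → F)}
    (hP : ∀ y, f y v = 0 → f y y = 0 → y ∈ P) (y : ι → F) (hy : f y v = 0) : y ∈ P := by
  have hs := h.toSForm
  have h1 := card_le_finrank_dotKer (dv σ f v)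
  obtain ⟨w, hw, hw0, hw1⟩ := h.sing (dotKer (dv σ f v)) (by omega)
  obtain ⟨x, hx, hx'⟩ := exists_perp_ne hs hv hw0 ((dv_dot hs _ _).symm.trans hw)
  exact h.le_of_singular hw hw1 hx (by rwa [dv_dot hs] at hx')
    (fun y hy => hP y ((dv_dot hs _ _).symm.trans hy)) y ((dv_dot hs _ _).trans hy)

theorem perp_le_of_invariant' {v : ι → F} (hv : v = 0 ∨ f v v ≠ 0) {B : Submodule F (ι → F)}
    (hB : ∀ E ∈ iso f ⊓ specialLinear ι F, E.1 *ᵥ v = v → ∀ b ∈ B, E.1 *ᵥ b ∈ B) {b : ι → F}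
    (hb : b ∈ B) (hb0 : b ≠ 0) (hbv : f b v = 0) : ∀ x, f x v = 0 → x ∈ B := by
  have hs := h.toSForm
  have step : ∀ a ∈ B, f a v = 0 → ∀ u, f u v = 0 → f u u = 0 → f a u ≠ 0 → u ∈ B := by
    intro a ha hav u huv hu hau
    obtain ⟨z, a1, a2, a3, a4⟩ := exists_nonsing_perp h ht h4 hv huv hav hu hau
    obtain ⟨c, hc⟩ := h.trace z
    have key : ∀ s : F, s • z - (c * (s * σ s)) • u ∈ B := fun s => by
      obtain ⟨E, hE, hE'⟩ := exists_eichler hs hu (z := s • z) (c := c * (s * σ s))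
        (by rw [hs.smul_left, a2, mul_zero])
        (by simp only [hs.smul_left, hs.smul_right, hc, map_mul, hs.invol]; ring)
      have := B.sub_mem (hB E hE (by
        simp [hE', hs.smul_right, hs.map_eq_zero.1 huv, hs.map_eq_zero.1 a1]) a ha) ha
      rw [hE', hs.smul_right, hs.map_eq_zero.1 a3] at this
      refine (B.smul_mem_iff hau).1 ?_
      convert this using 1
      module
    have h1 : t ≠ 0 := by
      rintro rfl
      simp at ht
    have h2 : c ≠ 0 := by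
      rintro rfl
      simp [hc] at a4
    refine (B.smul_mem_iff (mul_ne_zero h2 (mul_ne_zero h1 h1))).1 ?_
    convert B.sub_mem (key t) (B.smul_mem t (key 1)) using 1
    rw [map_one, show σ t = 1 - t by linear_combination ht]
    module
  obtain ⟨u, huv, hu, hbu⟩ : ∃ u, f u v = 0 ∧ f u u = 0 ∧ f u b ≠ 0 := by
    by_contra! hc
    obtain ⟨x, hx, hx'⟩ := exists_perp_ne hs hv hb0 hbv
    exact hx' (perp_le_of_singular' h h4 hv (P := (dotKer (dv σ f b)).toAddSubgroup)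
      (fun y h1 h2 => (dv_dot hs _ _).trans (hc y h1 h2)) x ((dv_dot hs _ _).symm.trans hx))
  refine perp_le_of_singular' h h4 hv (P := B.toAddSubgroup) fun y hyv hy => ?_
  by_cases hy0 : y = 0
  · exact hy0 ▸ B.zero_mem
  obtain ⟨w, a1, a2, a3, a4⟩ := exists_nbr h ht h4 hv (fun h0 => hbu (by rw [h0, hs.zero_left]))
    hy0 huv hyv hu hy
  exact step w (step u (step b hb hbv u huv hu (mt hs.map_eq_zero.1 hbu)) huv w a1 a2
    (mt hs.map_eq_zero.1 a3)) a1 y hyv hy a4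

theorem mem_sim_of_singular {g : GL ι F} (hg : ∀ x, f (g.1 *ᵥ x) (g.1 *ᵥ x) = 0 ↔ f x x = 0) :
    g ∈ similarityGroup f := by
  have hs := h.toSForm
  have eig : ∀ y, f y y = 0 → ∃ c : F, c • y = (adj σ f g * g.1) *ᵥ y := fun y hy =>
    exists_eig_of_perp hs fun x hx => by
      by_contra h1
      obtain ⟨c, hc⟩ := h.exists_sub_singular ((hg y).2 hy) h1
      rw [← mulVec_smul, ← mulVec_sub, hg] at hc
      simp only [hs.sub_left, hs.sub_right, hs.smul_left, hs.smul_right, hx, hy,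
        hs.map_eq_zero.1 hx, mul_zero, sub_zero] at hc
      refine h1 (herm_eq_zero h ht ((hg x).2 hc) ((hg y).2 hy) fun c => ?_)
      rw [← mulVec_smul, ← mulVec_add, hg]
      simp [hs.add_left, hs.add_right, hs.smul_left, hs.smul_right, hx, hy, hc,
        hs.map_eq_zero.1 hx]
  have same : ∀ {c d : F} {x y}, c • x = (adj σ f g * g.1) *ᵥ x → d • y = (adj σ f g * g.1) *ᵥ y →
      f x y ≠ 0 → σ c = d := fun {c d x y} h1 h2 h3 => by
    have h5 := hs.herm (g.1 *ᵥ x) (g.1 *ᵥ y)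
    rw [hs.adj_spec, hs.adj_spec, mulVec_mulVec, mulVec_mulVec, ← h1, ← h2, hs.smul_right,
      hs.smul_right, map_mul, hs.invol, one_mul, ← one_mul (σ (f y x)), ← hs.herm] at h5
    rw [← mul_right_cancel₀ h3 h5, hs.invol]
  obtain ⟨y₀, -, hy0, hy₀⟩ := h.sing ⊤ (by simp; omega)
  obtain ⟨c, hc⟩ := eig y₀ hy₀
  refine mem_sim_of_scalar hs hy0 (c := c) fun y => ?_
  have := perp_le_of_singular' h h4 (Or.inl rfl)
    (P := (LinearMap.ker (toLin' (adj σ f g * g.1 - c • 1))).toAddSubgroup) (fun z _ hz => ?_) y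
    (hs.zero_right y)
  · simpa [sub_mulVec, sub_eq_zero, Matrix.smul_mulVec] using this
  by_cases hz0 : z = 0
  · simp [hz0]
  obtain ⟨w, -, a1, a2, a3⟩ := exists_nbr h ht h4 (Or.inl rfl) hy0 hz0 (hs.zero_right _)
    (hs.zero_right _) hy₀ hz
  obtain ⟨d, hd⟩ := eig w a1
  obtain ⟨e, he⟩ := eig z hz
  rw [← same hd he a3, same hd hc a2] at he
  simpa [sub_mulVec, sub_eq_zero, Matrix.smul_mulVec] using he.symm

theorem specialLinear_le_of_nonsingular' (hM : iso f ⊓ specialLinear ι F ≤ M) {g : GL ι F}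
    (hg : g ∈ M) {u : ι → F} (hu : f u u = 0) (hv : f (g.1 *ᵥ u) (g.1 *ᵥ u) ≠ 0) :
    specialLinear ι F ≤ M := by
  have hs := h.toSForm
  set v := g.1 *ᵥ u with hvdef
  have hv0 : v ≠ 0 := fun h0 => hv (by rw [h0, h.zero_left])
  have hu0 : u ≠ 0 := fun h0 => hv0 (by rw [hvdef, h0, mulVec_zero])
  obtain ⟨a, ha⟩ := exists_dv hs (dv σ f u ᵥ* (g⁻¹).1)
  have hφ : ∀ x, dv σ f a ⬝ᵥ (g.1 *ᵥ x) = f x u := fun x => by
    rw [ha, vecMul_inv_dot_mulVec, dv_dot hs]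
  have good : ∀ z, f z u = 0 → ∃ A ∈ M, ∃ ψ : ι → F,
      (∀ x, A.1 *ᵥ x = x + (dv σ f a ⬝ᵥ x) • (g.1 *ᵥ z) + (ψ ⬝ᵥ x) • v) ∧
        ∀ x, f x u = 0 → ψ ⬝ᵥ (g.1 *ᵥ x) = -f x z := fun z hz => by
    obtain ⟨c, hc⟩ := h.trace z
    obtain ⟨E, hE, hE'⟩ := exists_eichler hs hu hz hc
    refine ⟨g * E * g⁻¹, M.mul_mem (M.mul_mem hg (hM hE)) (M.inv_mem hg),
      -(dv σ f z ᵥ* (g⁻¹).1 + c • dv σ f a), fun x => ?_, fun x hx => ?_⟩
    · obtain ⟨x, rfl⟩ : ∃ x', x = g.1 *ᵥ x' := ⟨_, (GL_mulVec_inv_mulVec _ x).symm⟩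
      simp only [GL_mul_mulVec, GL_inv_mulVec_mulVec, hE', mulVec_add, mulVec_sub, mulVec_smul,
        ← hvdef, hφ, neg_dotProduct, add_dotProduct, smul_dotProduct,
        vecMul_inv_dot_mulVec, dv_dot hs z, smul_eq_mul, map_one]
      module
    · simp only [hφ, neg_dotProduct, add_dotProduct, smul_dotProduct, vecMul_inv_dot_mulVec,
        dv_dot hs z, smul_eq_mul, hx, mul_zero, add_zero]
  have hva : dv σ f a ⬝ᵥ v = 0 := by rw [hvdef, hφ, hu]
  have ax : Ax M v (dv σ f a) := ⟨hva, fun z hz => by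
    obtain ⟨z, rfl⟩ : ∃ x', z = g.1 *ᵥ x' := ⟨_, (GL_mulVec_inv_mulVec _ z).symm⟩
    rw [hφ] at hz
    obtain ⟨A, hA, ψ, h1, h2⟩ := good z hz
    exact ⟨A, hA, ψ, by rw [hvdef, h2 u hu, hs.map_eq_zero.1 hz, neg_zero], h1⟩⟩
  have span : ∀ U : Submodule F (ι → F), (∀ φ, Ax M v φ → φ ∈ U) → ∀ φ, φ ⬝ᵥ v = 0 → φ ∈ U := by
    intro U hU φ h1
    obtain ⟨b, rfl⟩ := exists_dv hs φ
    have h2 := perp_le_of_invariant' h ht h4 (Or.inr hv)
      (B := Submodule.span F {b | Ax M v (dv σ f b)}) (fun E hE hE' b hb => ?_)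
      (Submodule.subset_span ax) (fun h0 => hu0 (h.nondeg _ fun x => by
        rw [← hφ, h0, dv_zero hs, zero_dotProduct]))
      (hs.map_eq_zero.1 ((dv_dot hs _ _).symm.trans hva)) b
      (hs.map_eq_zero.1 ((dv_dot hs _ _).symm.trans h1))
    · clear h1
      induction h2 using Submodule.span_induction with
      | mem x hx => exact hU _ hx
      | zero => simp [dv_zero hs]
      | add x y _ _ h1 h2 => exact dv_add hs x y ▸ U.add_mem h1 h2
      | smul c x _ h1 => exact dv_smul hs c x ▸ U.smul_mem _ h1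
    · exact (Submodule.span_le (p := (Submodule.span F _).comap (toLin' E.1))).2
        (fun b hb => Submodule.subset_span (Ax.conj hb (hM hE) hE' fun x => by
          rw [dv_dot hs, dv_dot hs]
          exact hE.1 x b)) hb
  have ex : ∀ φ ψ : ι → F, ∃ χ, Ax M v χ ∧ χ ∉ Submodule.span F {φ, ψ} := fun φ ψ => by
    by_contra! hc
    have h1 := Submodule.finrank_mono (s := dotKer v) fun χ hχ =>
      span _ hc χ ((dotProduct_comm _ _).trans hχ)
    have h2 := finrank_span_pair_le (F := F) φ ψ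
    have h3 := card_le_finrank_dotKer v
    omega
  obtain ⟨b, hb⟩ := exists_form_ne_zero hs hu0
  obtain ⟨y, -, hy1, -, hy2⟩ := exists_nonsing_perp h ht h4 (Or.inl rfl) (hs.zero_right _)
    (hs.zero_right _) hu hb
  obtain ⟨φ, h1, h2, h3⟩ : ∃ φ, Ax M v φ ∧ φ ⬝ᵥ (g.1 *ᵥ y) = 0 ∧ φ ∉ F ∙ dv σ f a := by
    obtain ⟨φ, a1, a2⟩ := ex (dv σ f a) 0
    by_cases a3 : φ ⬝ᵥ (g.1 *ᵥ y) = 0
    · exact ⟨φ, a1, a3, fun h0 => a2 (Submodule.span_mono (by simp) h0)⟩
    obtain ⟨ψ, a4, a5⟩ := ex (dv σ f a) φ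
    obtain ⟨A, hA, a6, a7⟩ := a1.exists a4.1 (fun h0 => a5 (Submodule.span_mono (by simp) h0))
      (-(ψ ⬝ᵥ (g.1 *ᵥ y) / φ ⬝ᵥ (g.1 *ᵥ y)))
    refine ⟨_, a4.conj hA a6 a7, by simp [a3], fun h0 => a5 ?_⟩
    exact (Submodule.add_mem_iff_left _ (Submodule.smul_mem _ _ (Submodule.subset_span
      (by simp)))).1 (Submodule.span_mono (by simp) h0)
  obtain ⟨A, hA, ψ, a1, a2⟩ := good y hy1
  obtain ⟨B, hB, ψ', a3, a4⟩ := h1.2 _ h2
  have a5 := tv_of_comm hA hB a1 a4 hva (by rw [hφ, hy1]) (by rw [hφ, hy1]) h1.1 h2 h2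
    (by rw [hvdef, a2 u hu, hs.map_eq_zero.1 hy1, neg_zero]) a3
  have a6 : (ψ ⬝ᵥ (g.1 *ᵥ y)) • φ - (ψ' ⬝ᵥ (g.1 *ᵥ y)) • dv σ f a ≠ 0 := fun h0 => h3 (by
    rw [← Submodule.smul_mem_iff _ (neg_ne_zero.2 hy2), ← a2 y hy1, sub_eq_zero.1 h0]
    exact Submodule.smul_mem _ _ (Submodule.mem_span_singleton_self _))
  generalize (ψ ⬝ᵥ (g.1 *ᵥ y)) • φ - (ψ' ⬝ᵥ (g.1 *ᵥ y)) • dv σ f a = χ at a5 a6
  have step : ∀ φ χ, Ax M v φ → Tv M v χ → χ ∉ (F ∙ φ) → ∀ s : F, Tv M v (s • φ) := by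
    intro φ χ b1 b2 b3 s
    obtain ⟨A, hA, b4, b5⟩ := b1.exists b2.dot b3 s
    have b6 := b2.conj' hA b5
    rw [b4] at b6
    convert b6.sub_right b2 using 1
    module
  obtain ⟨φ₁, b1, b2⟩ := ex χ 0
  have b3 : ∀ φ, χ ∈ (F ∙ φ) → φ₁ ∉ F ∙ φ := fun φ h5 h6 => by
    obtain ⟨c, rfl⟩ := Submodule.mem_span_singleton.1 h5
    obtain ⟨d, rfl⟩ := Submodule.mem_span_singleton.1 h6
    exact b2 (Submodule.mem_span_pair.2 ⟨d / c, 0, by
      simp [smul_smul, left_ne_zero_of_smul a6]⟩)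
  have b4 := step _ _ b1 a5 (fun h0 => b3 _ h0 (Submodule.mem_span_singleton_self _)) 1
  rw [one_smul] at b4
  refine specialLinear_le_of_fullCenters (eq_top_iff.2 fun x _ =>
    perp_le_of_invariant' h ht h4 (Or.inl rfl)
      (fun _ hE _ _ hb => mulVec_mem_fullCenters hb (hM hE)) (b := v) (fun φ h5 => ?_) hv0
      (hs.zero_right v) x (hs.zero_right x))
  simpa using span ⟨⟨⟨{φ | ∀ s : F, Tv M v (s • φ)}, fun h1 h2 s => by
      simpa using (h1 s).add_right (h2 s)⟩, fun s => by simpa using Tv.zero_right M v⟩,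
    fun c _ h1 s => by simpa [smul_smul] using h1 (s * c)⟩ (fun φ h6 => by
      by_cases h7 : χ ∈ F ∙ φ
      exacts [step _ _ h6 b4 (b3 _ h7), step _ _ h6 a5 h7]) φ h5 1

end Herm

theorem isMaximalIn_sim_herm' [Finite F] (h : SForm σ 1 f) {t : F} (ht : t + σ t = 1)
    (h4 : 4 ≤ Fintype.card ι) :
    IsMaximalIn (specialLinear ι F) (similarityGroup f ⊓ specialLinear ι F) :=
  isMaximalIn_inf (not_specialLinear_le_sim h h4) fun _ hM _ g hg hgf => by
    have key := fun g hg u => specialLinear_le_of_nonsingular' (tForm_of_herm h ht) ht h4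
      ((inf_le_inf_right _ iso_le_sim).trans hM) (g := g) hg (u := u)
    by_contra hne
    refine hgf (mem_sim_of_singular (tForm_of_herm h ht) ht h4 fun x => ⟨fun h1 => ?_, fun h1 =>
      by_contra fun h2 => hne (key g hg x h1 h2)⟩)
    exact by_contra fun h2 => hne (key _ (inv_mem hg) _ h1 (by rwa [GL_inv_mulVec_mulVec]))

theorem isMaximalIn_sim_unitary' [Finite F] {τ : F ≃+* F} (hf : IsUnitaryForm τ f)
    (h4 : 4 ≤ Fintype.card ι) :
    IsMaximalIn (specialLinear ι F) (similarityGroup f ⊓ specialLinear ι F) := by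
  obtain ⟨t, ht⟩ := Forms.exists_add_conj_eq (σ := (τ : F →+* F))
    (fun h0 => hf.ne_refl (RingEquiv.ext fun a => RingHom.congr_fun h0 a)) hf.involutive 1
    (map_one _)
  exact isMaximalIn_sim_herm' (sform_of_unitary hf) ht h4

theorem isMaximalIn_quadSim' [Fintype F] {Q : (ι → F) → F} (hQ : IsNondegenerateQuadraticForm Q)
    (hodd : Odd (Fintype.card F)) (h4 : 4 ≤ Fintype.card ι) :
    IsMaximalIn (specialLinear ι F) (quadSimilarityGroup Q ⊓ specialLinear ι F) := by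
  have h2 : (2 : F) ≠ 0 := Ring.two_ne_zero fun h => by
    have := FiniteField.even_card_of_char_two h
    have := Nat.odd_iff.1 hodd
    omega
  rw [quadSimilarityGroup_eq hQ h2]
  exact isMaximalIn_sim_herm' (sform_of_quad hQ) (t := 2⁻¹) (by simp; field_simp; norm_num) h4

end Cfsg.Lib.Linear
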