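import Cfsg.Agent.Lib.Linear.Four3
import Cfsg.Agent.Lib.Symp.Four
import Cfsg.Agent.Lib.OMax.Frame6B
import Cfsg.Agent.Lib.Asch.Extra

/-!
# The normaliser of `4 ∘ 2^(1+4)` is maximal in `SL 4 p`
-/

namespace Cfsg.Lib.C6

open Matrix Module Cfsg.Geo Cfsg.Lib.Asch Cfsg.Lib.Orth Cfsg.Lib.OMax
open scoped MatrixGroups commutatorElement

variable {ι : Type} [Fintype ι] [DecidableEq ι] {F : Type*} [Field F] {R : Subgroup (GL ι F)}

theorem St.card_eq [Finite F] (h : St R) (hi : ActsAbsolutelyIrreducibly (matrixSet R)) :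
    Nat.card R = Nat.card (Subgroup.center R) * 16 := by
  have := h.nonempty
  have h1 : Subgroup.center R = (scalars ι F).subgroupOf R := Subgroup.ext fun x => by
    rw [mem_center_iff h.schur, Subgroup.mem_subgroupOf, mem_scalars_iff]
    exact ⟨fun ⟨c, hc⟩ => ⟨Units.mk0 c (ne_zero_of_eq_smul hc), hc⟩, fun ⟨c, hc⟩ => ⟨c, hc⟩⟩
  have h2 := relIndex_scalars (env_eq_top_of_absIrred hi) (Subgroup.commutator_le.2
    fun s hs t ht => (mem_scalars_iff _).2 (by
      have : (⁅s, t⁆).1 = s.1 * t.1 * ((t * s)⁻¹).1 := by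
        simp only [commutatorElement_def, _root_.mul_inv_rev, Units.val_mul, Matrix.mul_assoc]
      rcases h.comm_or hs ht with e | e <;> rw [this, e, ← Units.val_mul]
      · exact ⟨1, by rw [Units.mul_inv, Units.val_one, one_smul]⟩
      · exact ⟨-1, by rw [Matrix.neg_mul, Units.mul_inv]; simp⟩))
  rw [h.four] at h2
  rw [h1, ← Subgroup.card_mul_index ((scalars ι F).subgroupOf R), ← Subgroup.relIndex, h2]
  rfl

theorem St.le_sl (h : St R) (hZ : 2 < Nat.card (Subgroup.center R)) : R ≤ specialLinear ι F := by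
  have := h.nonempty
  obtain ⟨j, hj, i, e, hi⟩ := h.exists_i hZ
  have h1 : ∀ s ∈ R, Sc s → s.1.det = 1 := by
    rintro s hs ⟨c, hc⟩
    have h2 := h.sq s hs
    rw [hc, smul_mul_smul_comm, Matrix.one_mul] at h2
    rw [hc, det_smul, h.four, det_one, mul_one]
    rcases h2 with h2 | h2
    · have := smul_one_inj (h2.trans (one_smul F _).symm)
      linear_combination (c * c + 1) * this
    · have := smul_one_inj (h2.trans (neg_one_smul F _).symm)
      linear_combination (c * c - 1) * this
  have h2 : ∀ s ∈ R, s.1 * s.1 = 1 → s.1.det = 1 := fun s hs e => by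
    by_cases h3 : Sc s
    · exact h1 s hs h3
    have h4 := h.trace_eq_zero hs h3
    rcases invol_cases h.two h.four e (not_sc_iff.1 h3) with h5 | h5 | h5
    · exact h5.1
    · exact absurd (h5.2.1.symm.trans h4) h.two
    · exact absurd (h5.2.1.symm.trans h4) (neg_ne_zero.2 h.two)
  refine fun s hs => Linear.mem_specialLinear.2 ((h.sq s hs).elim (h2 s hs) fun e' => ?_)
  have := h2 _ (mul_mem hj hs) (by rw [smul_sq e hi, e', neg_neg])
  rwa [Units.val_mul, det_mul, h1 j hj ⟨i, e⟩, one_mul] at this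

theorem range_toGL : (SpecialLinearGroup.toGL : SpecialLinearGroup ι F →* GL ι F).range =
    specialLinear ι F := Subgroup.ext fun g => ⟨by
  rintro ⟨g, rfl⟩
  exact Linear.mem_specialLinear.2 g.2, fun h => ⟨⟨g.1, Linear.mem_specialLinear.1 h⟩, Units.ext rfl⟩⟩

theorem klein_eq_one {g : SL(4, F)} :
    klein F g = 1 ↔ SpecialLinearGroup.toGL g = 1 ∨ SpecialLinearGroup.toGL g = -1 := by
  refine ⟨fun h => (preCover_klein.ker _ h).imp (fun h => by rw [h, map_one])
    fun h => Units.ext (congrArg Subtype.val h), fun h => O.ext fun v => ?_⟩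
  rw [klein_apply, show g.1 = (SpecialLinearGroup.toGL g).1 from rfl, O.one_apply]
  rcases h with h | h <;> rw [h]
  · simp
  · have := Symp.klM_smul (-1 : F) 1
    simp only [neg_smul, one_smul, even_two, Even.neg_pow, one_pow, map_one] at this
    simp [this]

theorem isMaximalIn_c6_sl [Fintype F] (hp : (Fintype.card F).Prime) (h2 : (2 : F) ≠ 0)
    {R : Subgroup (GL (Fin 4) F)} (hR : IsLinearSymplecticTypeData 2 R) :
    IsMaximalIn (specialLinear (Fin 4) F) (subgroupNormalizer R ⊓ specialLinear (Fin 4) F) := by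
  have h := St.of h2 (by simp) hR.symplecticType hR.absIrred
  have hZ : Nat.card (Subgroup.center R) = 4 := by
    obtain ⟨p, e, -, -, h1 | h1 | h1⟩ := hR.field
    · exact absurd h1.1 (by decide)
    · exact h1.2.2.1
    · simpa using h1.2.2.1
  have hc := h.card_eq hR.absIrred
  obtain ⟨a, b, c, d, H⟩ := h.exists_b4 (by omega)
  have h1 := h.le_sl (by omega)
  rw [← range_toGL] at h1 ⊢
  exact Symp.isMaximalIn_c6 (nd_qPlus 3) (primeF_of_card hp) (n := 6) (by simp) (by omega)
    (fun Q' e S => S.max_six (by simp)) _ SpecialLinearGroup.toGL_injective _ range_klein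
    (fun _ => klein_eq_one) h h1 (h.neg_one_mem H) (by omega)

end Cfsg.Lib.C6
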