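import Cfsg.Agent.Lib.Linear.UnA
import Cfsg.Agent.Lib.Linear.MonoGL

/-!
# The stabiliser of a tensor decomposition is maximal in the special linear group
-/

namespace Cfsg.Lib.Linear

open Matrix Module Cfsg.Geo
open scoped MatrixGroups Kronecker

variable {α β : Type} [Fintype α] [Fintype β] [DecidableEq α] [DecidableEq β] {F : Type*} [Field F]
  {M : Subgroup (GL (α × β) F)}

theorem kr_mem_of_SL (hM : kronGL α β F ⊓ specialLinear (α × β) F ≤ M) {a : GL α F} {b : GL β F}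
    (ha : a ∈ specialLinear α F) (hb : b ∈ specialLinear β F) : kr a b ∈ M :=
  hM ⟨kr_mem a b, kr_mem_SL ha hb⟩

/-- One transvection of pure type gives all of them. -/
theorem tv_tens_of_one (hM : kronGL α β F ⊓ specialLinear (α × β) F ≤ M) {v φ : α → F}
    {w ψ : β → F} (hv : v ≠ 0) (hφ : φ ≠ 0) (h1 : φ ⬝ᵥ v = 0) (hw : w ≠ 0) (hψ : ψ ≠ 0)
    (h2 : ψ ⬝ᵥ w = 0) (h : ∀ c : F, Tv M (tens v w) (c • tens φ ψ)) {v' φ' : α → F}
    {w' ψ' : β → F} (h1' : φ' ⬝ᵥ v' = 0) (h2' : ψ' ⬝ᵥ w' = 0) :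
    Tv M (tens v' w') (tens φ' ψ') := by
  rcases eq_or_ne v' 0 with rfl | hv'
  · simpa using Tv.zero_left M _
  rcases eq_or_ne w' 0 with rfl | hw'
  · simpa using Tv.zero_left M _
  rcases eq_or_ne φ' 0 with rfl | hφ'
  · simpa using Tv.zero_right M _
  rcases eq_or_ne ψ' 0 with rfl | hψ'
  · simpa using Tv.zero_right M _
  obtain ⟨a, ha, c, e, hc, he, ha1, ha2⟩ := exists_SL_flag_flag hv hφ h1 hv' hφ' h1'
  obtain ⟨b, hb, c', e', hc', he', hb1, hb2⟩ := exists_SL_flag_flag hw hψ h2 hw' hψ' h2'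
  have h3 := (h (e * e' / (c * c'))).conj' (kr_mem_of_SL hM ha hb)
    (ψ := (c * c')⁻¹ • tens φ' ψ') fun x => by
      rw [smul_dotProduct, dotProduct_mulVec, kr_coe, tens_vecMul_kron, ha2, hb2, tens_smul_left,
        tens_smul_right, smul_smul, smul_dotProduct, smul_dotProduct, smul_smul]
      congr 1
      field_simp
  rw [kr_mulVec_tens, ha1, hb1, tens_smul_left, tens_smul_right, smul_smul] at h3
  have h4 := h3.of_smul_left (mul_ne_zero hc hc')
  rwa [smul_smul, mul_inv_cancel₀ (mul_ne_zero hc hc'), one_smul] at h4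

omit [DecidableEq α] in
theorem exists_mem_dotKer_notMem {φ : α → F} {W : Submodule F (α → F)}
    (h : finrank F W + 1 < Fintype.card α) : ∃ x, φ ⬝ᵥ x = 0 ∧ x ∉ W :=
  exists_mem_notMem_of_finrank_lt (W := dotKer φ) (U := W)
    (by have := card_le_finrank_dotKer φ; omega)

theorem specialLinear_le_of_tv_tens (ha : 2 ≤ Fintype.card α) (hb : 3 ≤ Fintype.card β)
    (h : ∀ (v φ : α → F) (w ψ : β → F), φ ⬝ᵥ v = 0 → ψ ⬝ᵥ w = 0 → Tv M (tens v w) (tens φ ψ)) :
    specialLinear (α × β) F ≤ M := by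
  have h1 : ∀ (v φ : α → F) (w ψ : β → F), ψ ⬝ᵥ w = 0 → Tv M (tens v w) (tens φ ψ) := by
    intro v φ w ψ hψ
    by_cases hφ : φ ⬝ᵥ v = 0
    · exact h v φ w ψ hφ hψ
    obtain ⟨v', hv1, hv2⟩ := exists_mem_dotKer_notMem (φ := φ) (W := ⊥) (by simp; omega)
    obtain ⟨φ', hφ1, hφ2⟩ := exists_dot_of_notMem_span (u := v) (v := v') fun h0 => by
      obtain ⟨c, rfl⟩ := Submodule.mem_span_singleton.1 h0
      rw [dotProduct_smul, smul_eq_zero, or_iff_left hφ] at hv1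
      simp [hv1] at hv2
    obtain ⟨w', hw1, hw2⟩ := exists_mem_dotKer_notMem (φ := ψ) (W := Submodule.span F {w})
      (by have := finrank_span_singleton_le (F := F) w; omega)
    obtain ⟨ψ', hψ1, hψ2⟩ := exists_dot_of_notMem_span hw2
    have := (h v φ' w ψ' hφ1 hψ1).comm_right (h v' φ w' ψ hv1 hw1)
      (by rw [tens_dot_tens, hψ, mul_zero])
    rwa [tens_dot_tens, hφ2, hψ2, one_mul, one_smul] at this
  have h2 : ∀ (v φ : α → F) (w ψ : β → F), v ≠ 0 → φ ⬝ᵥ v = 0 →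
      Tv M (tens v w) (tens φ ψ) := by
    intro v φ w ψ hv hφ
    by_cases hψ : ψ ⬝ᵥ w = 0
    · exact h v φ w ψ hφ hψ
    obtain ⟨w', hw1, hw2⟩ := exists_mem_dotKer_notMem (φ := ψ) (W := ⊥) (by simp; omega)
    obtain ⟨ψ', hψ1, hψ2⟩ := exists_dot_of_notMem_span (u := w) (v := w') fun h0 => by
      obtain ⟨c, rfl⟩ := Submodule.mem_span_singleton.1 h0
      rw [dotProduct_smul, smul_eq_zero, or_iff_left hψ] at hw1
      simp [hw1] at hw2
    obtain ⟨φ', hφ'⟩ := exists_dot_eq_one hv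
    have := (h1 v φ' w ψ' hψ1).comm_right (h v φ w' ψ hφ hw1)
      (by rw [tens_dot_tens, hφ, zero_mul])
    rwa [tens_dot_tens, hφ', hψ2, one_mul, one_smul] at this
  refine specialLinear_le_of_fullCenters (eq_top_iff.2 fun x _ => ?_)
  induction x using tens_induction with
  | h0 => exact zero_mem _
  | ha x y hx hy => exact add_mem (hx trivial) (hy trivial)
  | ht v w =>
    rcases eq_or_ne v 0 with rfl | hv
    · simp
    rcases eq_or_ne w 0 with rfl | hw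
    · simp
    obtain ⟨ψ₀, hψ₀⟩ := exists_dot_eq_one hw
    intro Θ hΘ
    have h3 : Θ = tens (ctr w Θ) ψ₀ +
        ∑ i, tens (Pi.single i 1) ((fun j => Θ (i, j)) - ctr w Θ i • ψ₀) := by
      simp only [tens_sub_right, Finset.sum_sub_distrib, ← eq_sum_tens, tens_smul_right,
        ← tens_smul_left]
      have : ∑ i, tens (ctr w Θ i • (Pi.single i 1 : α → F)) ψ₀ = tens (ctr w Θ) ψ₀ := by
        rw [← tensL_apply, ← Finset.univ_sum_single (ctr w Θ), map_sum]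
        simp [← Pi.single_smul]
      rw [this, add_sub_cancel]
    rw [h3]
    refine (h2 _ _ _ _ hv ?_).add_right (Tv.sum_right fun i _ => h1 _ _ _ _ ?_)
    · rw [dotProduct_comm, ← tens_dot, dotProduct_comm, hΘ]
    · rw [sub_dotProduct, smul_dotProduct, hψ₀, smul_eq_mul, mul_one, dotProduct_comm]
      exact sub_self _

theorem tens_ctr_mem_unA (hM : kronGL α β F ⊓ specialLinear (α × β) F ≤ M) {w ψ : β → F}
    (h : ψ ⬝ᵥ w = 0) : tensL w ∘ₗ ctr ψ ∈ unA M (Pt α w) :=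
  ⟨fun _ => tens_mem_Pt _ _, fun x hx => by
    rw [LinearMap.comp_apply, ctr_eq_zero_of_mem_Pt hx h, map_zero], _,
    kr_mem_of_SL hM (one_mem _) (tvGL_mem_specialLinear w ψ h), kr_one_tvGL_mulVec h⟩

omit [Fintype α] [DecidableEq α] [DecidableEq β] in
theorem tens_ctr_of_mem_Pt {w ψ : β → F} (h : ψ ⬝ᵥ w = 1) {x : α × β → F} (hx : x ∈ Pt α w) :
    tens (ctr ψ x) w = x := by
  obtain ⟨v, rfl⟩ := hx
  rw [tensL_apply, ctr_tens, h, one_smul]

/-- An additional element centralising `V₁ ⊗ w` and `V / (V₁ ⊗ w)` gives everything. -/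
theorem specialLinear_le_of_unA (hM : kronGL α β F ⊓ specialLinear (α × β) F ≤ M)
    (ha : 2 ≤ Fintype.card α) (hb : 3 ≤ Fintype.card β)
    (hq : (∃ a : F, a ≠ 0 ∧ a ≠ 1) ∨ 3 ≤ Fintype.card α) {w : β → F} (hw : w ≠ 0)
    {Y : (α × β → F) →ₗ[F] (α × β → F)} (hY : Y ∈ unA M (Pt α w))
    (hY' : ¬ ∃ ψ : β → F, ∀ x, Y x = tens (ctr ψ x) w) : specialLinear (α × β) F ≤ M := by
  obtain ⟨ψ₀, hψ₀⟩ := exists_dot_eq_one hw
  have h1 : ∀ x, tens (ctr ψ₀ (Y x)) w = Y x := fun x => tens_ctr_of_mem_Pt hψ₀ (hY.1 x)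
  have h2 : ∃ (w₁ : β → F) (v : α → F), ctr ψ₀ (Y (tens v w₁)) ∉ Submodule.span F {v} := by
    by_contra h2
    push Not at h2
    have : Nonempty α := Fintype.card_pos_iff.1 (by omega)
    obtain ⟨v₀, hv₀⟩ := exists_ne (0 : α → F)
    obtain ⟨φ₀, hφ₀⟩ := exists_dot_eq_one hv₀
    obtain ⟨ψ, hψ⟩ := exists_dot_eq (dotProductBilin F F φ₀ ∘ₗ ctr ψ₀ ∘ₗ Y ∘ₗ tensR v₀)
    refine hY' ⟨ψ, tens_ext (f := Y) (g := tensL w ∘ₗ ctr ψ) fun v w₁ => ?_⟩
    obtain ⟨c, hc⟩ := exists_smul_of_forall_mem_span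
      (a := LinearMap.toMatrix' (ctr ψ₀ ∘ₗ Y ∘ₗ tensL w₁)) fun v => by simpa using h2 w₁ v
    have hc' : ∀ v, ctr ψ₀ (Y (tens v w₁)) = c • v := fun v => by simpa using hc v
    have h3 : ψ ⬝ᵥ w₁ = c := by simp [hψ, hc', hφ₀]
    rw [← h1, hc', LinearMap.comp_apply, ctr_tens, h3, tensL_apply]
  obtain ⟨w₁, v, hv⟩ := h2
  obtain ⟨ψ, hψ, hψ1, hψ2⟩ := exists_dot_pair hb w w₁
  let B : Submodule F (Matrix α α F) :=
    { carrier := {y | ∀ c : F, tensL w ∘ₗ mulVecLin (c • y) ∘ₗ ctr ψ ∈ unA M (Pt α w)}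
      zero_mem' := fun c => by simp
      add_mem' := fun {y z} hy hz c => by
        simpa [mulVecLin_add, LinearMap.add_comp, LinearMap.comp_add] using add_mem (hy c) (hz c)
      smul_mem' := fun d y hy c => by simpa only [smul_smul] using hy (c * d) }
  obtain ⟨u, φ, hu, hφ, h3, h4⟩ := exists_rankOne_mem (B := B) (fun y hy u φ h c => by
      refine unA_conj (hy c) (kr_mem_of_SL hM (tvGL_mem_specialLinear u φ h) (one_mem _))
        (mulVec_mem_iff ?_) fun x => ?_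
      · rintro _ ⟨x, rfl⟩
        rw [tensL_apply, kr_mulVec_tens, Units.val_one, one_mulVec]
        exact tens_mem_Pt _ _
      · have h5 : (1 - vecMulVec u φ) * (1 + vecMulVec u φ) = 1 := by
          have := vecMulVec_mul_vecMulVec' u φ u φ
          rw [h, zero_smul] at this
          rw [sub_mul, mul_add, mul_add, this]
          simp
        simp only [LinearMap.comp_apply, tensL_apply, mulVecLin_apply]
        rw [kr_mulVec_tens, kr_coe, ctr_kron, Units.val_one, vecMul_one, one_mulVec, tvGL_coe,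
          mulVec_mulVec, mulVec_mulVec, smul_mul_assoc, mul_assoc, h5, mul_one, mul_smul_comm])
    hq (y := LinearMap.toMatrix' (ctr ψ₀ ∘ₗ Y ∘ₗ tensL w₁)) (fun c => by
      have h5 : (c • ψ) ⬝ᵥ w₁ = 0 := by rw [smul_dotProduct, hψ2, smul_zero]
      have h6 := unA_comp hY (kr_mem_of_SL hM (one_mem _) (tvGL_mem_specialLinear _ _ h5))
        fun x hx => by
          rw [kr_one_tvGL_mulVec, ctr_smul, ctr_eq_zero_of_mem_Pt hx hψ1]
          simp
      convert sub_mem h6 hY using 1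
      refine LinearMap.ext fun x => ?_
      simp only [LinearMap.comp_apply, tensL_apply, mulVecLin_apply, LinearMap.sub_apply,
        kr_one_tvGL_mulVec, map_add, add_sub_cancel_left, smul_mulVec,
        LinearMap.toMatrix'_mulVec, ctr_smul, tens_smul_left, h1]
      rw [map_smul])
    (v := v) (by simpa using hv)
  refine specialLinear_le_of_tv_tens ha hb fun v' φ' w' ψ' =>
    tv_tens_of_one hM hu hφ h3 hw hψ hψ1 fun c => Tv.of_unA (h4 c) fun x => ?_
  simp only [LinearMap.comp_apply, tensL_apply, mulVecLin_apply, smul_mulVec, vecMulVec_mulVec',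
    smul_dotProduct, tens_dot, tens_smul_left, smul_smul, smul_eq_mul]

/-- The stabiliser of `V₁ ⊗ w` consists of Kronecker products. -/
theorem mem_kronGL_of_stab (hM : kronGL α β F ⊓ specialLinear (α × β) F ≤ M)
    (hM' : M ≤ specialLinear (α × β) F) [Nonempty α] {w : β → F} (hw : w ≠ 0)
    (hA : ∀ Y ∈ unA M (Pt α w), ∃ ψ : β → F, ∀ x, Y x = tens (ctr ψ x) w)
    {z : GL (α × β) F} (hz : z ∈ M) (hP : ∀ x ∈ Pt α w, z.1 *ᵥ x ∈ Pt α w) :
    z ∈ kronGL α β F := by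
  obtain ⟨ψ₀, hψ₀⟩ := exists_dot_eq_one hw
  have h1 : ∀ v, tens (ctr ψ₀ (z.1 *ᵥ tens v w)) w = z.1 *ᵥ tens v w := fun v =>
    tens_ctr_of_mem_Pt hψ₀ (hP _ (tens_mem_Pt v w))
  obtain ⟨a, ha⟩ := exists_GL_of_injective (ctr ψ₀ ∘ₗ mulVecLin z.1 ∘ₗ tensL w) (by
    rw [injective_iff_map_eq_zero]
    intro v hv
    by_contra h0
    refine GL_mulVec_ne_zero z (tens_ne_zero h0 hw) ?_
    rw [← h1, show ctr ψ₀ (z.1 *ᵥ tens v w) = 0 from hv, tens_zero_left])
  replace ha : ∀ v, z.1 *ᵥ tens v w = tens (a.1 *ᵥ v) w := fun v => by rw [ha, ← h1]; rfl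
  have h2 : ∀ ψ' : β → F, ψ' ⬝ᵥ w = 0 →
      ∃ ψ : β → F, ∀ x, ctr ψ' (z.1 *ᵥ x) = a.1 *ᵥ ctr ψ x := fun ψ' hψ' => by
    obtain ⟨ψ, hψ⟩ := hA _ (unA_conj_stab' (tens_ctr_mem_unA hM hψ') hz hP)
    refine ⟨ψ, fun x => tensL_injective hw ?_⟩
    rw [tensL_apply, tensL_apply, ← ha, ← hψ]
    simp only [LinearMap.comp_apply, mulVecLin_apply, GL_mulVec_inv_mulVec, tensL_apply]
  obtain ⟨v₀, hv₀⟩ := exists_ne (0 : α → F)
  obtain ⟨φ₀, hφ₀⟩ := exists_dot_eq_one (GL_mulVec_ne_zero a hv₀)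
  have h3 : ∀ v y, tens (a.1 *ᵥ v) (ctl φ₀ (z.1 *ᵥ tens v₀ y)) - z.1 *ᵥ tens v y ∈ Pt α w :=
    fun v y => mem_Pt_of_ctr fun ψ' hψ' => by
      obtain ⟨ψ, hψ⟩ := h2 ψ' hψ'
      rw [map_sub, ctr_tens, ← tens_dot', tens_dot, hψ, hψ, ctr_tens, ctr_tens, mulVec_smul,
        dotProduct_smul, hφ₀, mulVec_smul, smul_eq_mul, mul_one, sub_self]
  have h4 : ctl φ₀ (z.1 *ᵥ tens v₀ w) = w := by rw [ha, ctl_tens, hφ₀, one_smul]
  obtain ⟨b, hb⟩ := exists_GL_of_injective (ctl φ₀ ∘ₗ mulVecLin z.1 ∘ₗ tensR v₀) (by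
    rw [injective_iff_map_eq_zero]
    intro y hy
    replace hy : ctl φ₀ (z.1 *ᵥ tens v₀ y) = 0 := hy
    have h5 := h3 v₀ y
    rw [hy, tens_zero_right, zero_sub, neg_mem_iff, mulVec_mem_iff hP] at h5
    obtain ⟨u, hu⟩ := h5
    obtain ⟨φ₁, hφ₁⟩ := exists_dot_eq_one hv₀
    have h6 := congrArg (ctl φ₁) hu
    rw [tensL_apply, ctl_tens, ctl_tens, hφ₁, one_smul] at h6
    rwa [← h6, tens_smul_right, mulVec_smul, map_smul, h4, h6] at hy)
  replace hb : ∀ y, b.1 *ᵥ y = ctl φ₀ (z.1 *ᵥ tens v₀ y) := hb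
  obtain ⟨h5, h6, h7⟩ := inv_mul_mem_SL (h := kr a b) hP
    (by
      rintro _ ⟨v, rfl⟩
      rw [tensL_apply, kr_mulVec_tens, hb, h4, ha])
    (fun x => by
      induction x using tens_induction with
      | h0 => simp
      | ht v y => rw [kr_mulVec_tens, hb]; exact h3 v y
      | ha x y hx hy =>
        rw [mulVec_add, mulVec_add, add_sub_add_comm]
        exact add_mem hx hy)
  have h8 : kr a b ∈ M := hM ⟨kr_mem a b, by simpa using mul_mem (hM' hz) h5⟩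
  have h9 := mem_unA_of_GL (M.mul_mem (M.inv_mem hz) h8) h6 h7
  obtain ⟨ψ, hψ⟩ := hA _ h9
  have h10 : ψ ⬝ᵥ w = 0 := by
    have := h9.2.1 _ (tens_mem_Pt v₀ w)
    rw [hψ, ctr_tens, tens_smul_left, smul_eq_zero] at this
    exact this.resolve_right (tens_ne_zero hv₀ hw)
  have h11 : z⁻¹ * kr a b = kr 1 (tvGL w ψ h10) := GL_ext_mulVec fun x => by
    rw [kr_one_tvGL_mulVec, ← hψ]
    simp
  have h12 : z = kr a b * (kr 1 (tvGL w ψ h10))⁻¹ := by rw [← h11]; group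
  rw [h12]
  exact mul_mem (kr_mem _ _) (inv_mem (kr_mem _ _))

theorem specialLinear_le_of_kronGL (hM : kronGL α β F ⊓ specialLinear (α × β) F ≤ M)
    (hM' : M ≤ specialLinear (α × β) F) (ha : 2 ≤ Fintype.card α)
    (hb : Fintype.card α < Fintype.card β)
    (hq : (∃ a : F, a ≠ 0 ∧ a ≠ 1) ∨ 3 ≤ Fintype.card α) {g : GL (α × β) F} (hg : g ∈ M)
    (hg' : g ∉ kronGL α β F) : specialLinear (α × β) F ≤ M := by
  by_contra hn
  have : Nonempty α := Fintype.card_pos_iff.1 (by omega)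
  have : Nonempty β := Fintype.card_pos_iff.1 (by omega)
  have hA : ∀ w : β → F, w ≠ 0 → ∀ z ∈ M, (∀ x ∈ Pt α w, z.1 *ᵥ x ∈ Pt α w) →
      z ∈ kronGL α β F := fun w hw z => mem_kronGL_of_stab hM hM' hw fun Y hY => by
    by_contra h
    exact hn (specialLinear_le_of_unA hM ha (by omega) hq hw hY h)
  have hA' : ∀ w w' : β → F, w ≠ 0 → w' ≠ 0 → ∀ z ∈ M, (∀ x ∈ Pt α w, z.1 *ᵥ x ∈ Pt α w') →
      z ∈ kronGL α β F := fun w w' hw hw' z hz h => by
    obtain ⟨b, hb, c, -, hc⟩ := exists_SL_mulVec_eq_smul hw' hw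
    have := hA w hw (kr 1 b * z) (mul_mem (kr_mem_of_SL hM (one_mem _) hb) hz) fun x hx => by
      obtain ⟨v, hv⟩ := h x hx
      rw [GL_mul_mulVec, ← hv, tensL_apply, kr_mulVec_tens, hc, tens_smul_right]
      exact Submodule.smul_mem _ _ (tens_mem_Pt _ _)
    exact (Subgroup.mul_mem_cancel_left _ (kr_mem _ _)).1 this
  have hR : ∀ g ∈ M, g ∉ kronGL α β F → ∀ (w ψ : β → F) (h : ψ ⬝ᵥ w = 0), w ≠ 0 → ψ ≠ 0 →
      g⁻¹ * kr 1 (tvGL w ψ h) * g ∉ kronGL α β F := fun g hg hg' w ψ h hw hψ hz => by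
    obtain ⟨w', hw', h1⟩ := exists_Pt_le hz (U := (Pt α w).map (toLin' (g⁻¹).1)) (fun h1 => by
      obtain ⟨y, hy⟩ := exists_dot_eq_one hψ
      obtain ⟨v, hv⟩ := exists_ne (0 : α → F)
      have h2 : kr (1 : GL α F) (tvGL w ψ h) = 1 := by
        rw [← mul_left_inj g, ← mul_right_inj g⁻¹, ← mul_assoc, h1]
        simp
      have h3 := kr_one_tvGL_mulVec h (tens v y)
      rw [h2, Units.val_one, one_mulVec, left_eq_add, ctr_tens, dotProduct_comm, hy,
        one_smul] at h3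
      exact tens_ne_zero hv hw h3)
      (fun x => ⟨_, tens_mem_Pt (ctr ψ (g.1 *ᵥ x)) w, by
        rw [GL_mul_mulVec, GL_mul_mulVec, kr_one_tvGL_mulVec, mulVec_add, GL_inv_mulVec_mulVec,
          add_sub_cancel_left, toLin'_apply]⟩)
      (by rwa [finrank_map_GL, finrank_Pt hw])
    refine hg' (hA' w' w hw' hw g hg fun x hx => ?_)
    obtain ⟨y, hy, rfl⟩ := h1 hx
    rwa [toLin'_apply, GL_mulVec_inv_mulVec]
  obtain ⟨w, hw⟩ := exists_ne (0 : β → F)
  refine hg' (le_of_maxk (P := Pt α w) (hA w hw) (fun g hg hg' x₀ hx₀ hx₀' => ?_) hg)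
  by_cases h0 : ∀ x ∈ Pt α w, g.1 *ᵥ x ∈ Pt α w → x = 0
  · obtain ⟨ψ, hψ, hψ0⟩ : ∃ ψ : β → F, ψ ∈ LinearMap.ker (ctrL (g.1 *ᵥ x₀)) ∧ ψ ∉ (⊥ : Submodule F _) := by
      refine exists_mem_notMem_of_finrank_lt ?_
      have h1 := LinearMap.finrank_range_add_finrank_ker (ctrL (g.1 *ᵥ x₀))
      have h2 := Submodule.finrank_le (LinearMap.range (ctrL (g.1 *ᵥ x₀)))
      rw [Module.finrank_fintype_fun_eq_card] at h1 h2
      rw [finrank_bot]
      omega
    obtain ⟨w', hw', h1⟩ := exists_dot_single (ι := β) (by omega) ψ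
    rw [dotProduct_comm] at h1
    refine ⟨_, kr_mem_of_SL hM (one_mem _) (tvGL_mem_specialLinear w' ψ h1),
      hR g hg hg' w' ψ h1 hw' hψ0, fun x hx hx' => by simp [h0 x hx hx'], x₀, hx₀, ?_⟩
    rw [kr_one_tvGL_mulVec, show ctr ψ (g.1 *ᵥ x₀) = 0 from hψ, tens_zero_left, add_zero]
  · push Not at h0
    obtain ⟨d, hd, ⟨e, he⟩, hd0⟩ := h0
    have he0 : e ≠ 0 := fun h => GL_mulVec_ne_zero g hd0 (by rw [← he, h, map_zero])
    obtain ⟨ψ, ⟨hψ, hψ'⟩, hψ0⟩ : ∃ ψ : β → F, ψ ∈ LinearMap.ker ((Submodule.span F {e}).mkQ ∘ₗ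
        ctrL (g.1 *ᵥ x₀)) ⊓ dotKer w ∧ ψ ∉ (⊥ : Submodule F _) := by
      refine exists_mem_notMem_of_finrank_lt ?_
      have h1 := LinearMap.finrank_range_add_finrank_ker ((Submodule.span F {e}).mkQ ∘ₗ
        ctrL (g.1 *ᵥ x₀))
      have h2 := Submodule.finrank_le (LinearMap.range ((Submodule.span F {e}).mkQ ∘ₗ
        ctrL (g.1 *ᵥ x₀)))
      have h3 := (Submodule.span F {e}).finrank_quotient_add_finrank
      have h4 := finrank_le_inf_dotKer (LinearMap.ker ((Submodule.span F {e}).mkQ ∘ₗ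
        ctrL (g.1 *ᵥ x₀))) w
      rw [finrank_span_singleton he0] at h3
      rw [Module.finrank_fintype_fun_eq_card] at h1 h3
      rw [finrank_bot]
      omega
    have h1 : ψ ⬝ᵥ w = 0 := by rw [dotProduct_comm]; exact hψ'
    obtain ⟨c, hc⟩ := Submodule.mem_span_singleton.1
      ((Submodule.Quotient.mk_eq_zero _).1 (LinearMap.mem_ker.1 hψ))
    refine ⟨_, kr_mem_of_SL hM (one_mem _) (tvGL_mem_specialLinear w ψ h1),
      hR g hg hg' w ψ h1 hw hψ0, fun x _ hx' => ?_, x₀ + c • d, add_mem hx₀ (Submodule.smul_mem _ _ hd), ?_⟩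
    · rw [kr_one_tvGL_mulVec, ctr_eq_zero_of_mem_Pt hx' h1, tens_zero_left, add_zero]
    · rw [kr_one_tvGL_mulVec, mulVec_add, mulVec_smul, ← he, ← ctrL_apply, ← hc, tens_smul_left,
        tensL_apply]

theorem isMaximalIn_kronGL (ha : 2 ≤ Fintype.card α) (hb : Fintype.card α < Fintype.card β)
    (hq : (∃ a : F, a ≠ 0 ∧ a ≠ 1) ∨ 3 ≤ Fintype.card α) :
    IsMaximalIn (specialLinear (α × β) F) (kronGL α β F ⊓ specialLinear (α × β) F) := by
  refine isMaximalIn_inf (fun h => ?_) fun M hM hM' g hg hg' =>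
    specialLinear_le_of_kronGL hM hM' ha hb hq hg hg'
  have : Nonempty α := Fintype.card_pos_iff.1 (by omega)
  have : Nonempty β := Fintype.card_pos_iff.1 (by omega)
  obtain ⟨v, hv⟩ := exists_ne (0 : α × β → F)
  obtain ⟨φ, hφ, h1⟩ := exists_dot_single (ι := α × β) (by rw [Fintype.card_prod]; nlinarith) v
  obtain ⟨w, hw, h2⟩ := exists_Pt_le (h (tvGL_mem_specialLinear v φ h1))
    (U := Submodule.span F {v}) (fun h2 => by
      obtain ⟨y, hy⟩ := exists_dot_eq_one hφ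
      have h3 := tvGL_mulVec v φ h1 y
      rw [h2, Units.val_one, one_mulVec, left_eq_add, dotProduct_comm, hy, one_smul] at h3
      exact hv h3)
    (fun x => by
      rw [tvGL_mulVec, add_sub_cancel_left]
      exact Submodule.smul_mem _ _ (Submodule.mem_span_singleton_self v))
    (by have := finrank_span_singleton_le (F := F) v; omega)
  have h3 := Submodule.finrank_mono h2
  have h4 := finrank_span_singleton_le (F := F) v
  rw [finrank_Pt hw] at h3
  omega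

theorem map_glReindex_specialLinear {ι κ : Type} [Fintype ι] [DecidableEq ι] [Fintype κ]
    [DecidableEq κ] (e : κ ≃ ι) :
    (specialLinear κ F).map (glReindex (F := F) e).toMonoidHom = specialLinear ι F := by
  ext g
  obtain ⟨g, rfl⟩ := (glReindex (F := F) e).surjective g
  rw [Subgroup.mem_map_equiv, MulEquiv.symm_apply_apply, mem_specialLinear, mem_specialLinear,
    ← det_reindex_self e g.1]
  rfl

theorem isMaximalIn_tensorProductSubgroup {ι : Type} [Fintype ι] [DecidableEq ι] [Fintype F]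
    {n₁ n₂ : ℕ} (h1 : 2 ≤ n₁) (h2 : n₁ < n₂) (h3 : ¬ (n₁ = 2 ∧ Fintype.card F = 2))
    (e : ι ≃ Fin n₁ × Fin n₂) (P : GL ι F) :
    IsMaximalIn (specialLinear ι F) (tensorProductSubgroup n₁ n₂ e P ⊓ specialLinear ι F) := by
  refine isMaximalIn_conj ?_ P
  have h := isMaximalIn_map (glReindex e.symm) (isMaximalIn_kronGL (α := Fin n₁) (β := Fin n₂)
    (F := F) (by simpa) (by simpa) (by
      by_cases h : Fintype.card F = 2
      · right
        simp only [Fintype.card_fin]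
        omega
      · left
        have := Fintype.one_lt_card (α := F)
        obtain ⟨a, ha⟩ := exists_notMem_list [(0 : F), 1] (by simp; omega)
        exact ⟨a, by simpa using ha⟩))
  change IsMaximalIn (Subgroup.map (glReindex e.symm).toMonoidHom _)
    (Subgroup.map (glReindex e.symm).toMonoidHom _) at h
  rwa [Subgroup.map_inf _ _ (glReindex e.symm).toMonoidHom (glReindex e.symm).injective,
    map_glReindex_specialLinear, ← kroneckerSubgroup_eq] at h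

end Cfsg.Lib.Linear
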