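import Cfsg.Agent.Lib.Linear.Unip
import Cfsg.Prelude.Def_ClassicalGeometry

/-! Small counting facts on `GL_n(q)`: Borel and parabolic orders, monomial matrices, and the
Sylow `p`-structure of `GL_2(q)`, `SL_2(q)`. -/

set_option autoImplicit false

namespace Cfsg.Lib.Linear

open Matrix
open scoped MatrixGroups Pointwise

variable {ι : Type*} [Fintype ι] [DecidableEq ι] {F : Type*} [Field F]

/-- Invertible matrices with a property, as matrices. -/
noncomputable def glSubtypeEquiv (P : Matrix ι ι F → Prop) :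
    {g : GL ι F // P g.1} ≃ {M : Matrix ι ι F // IsUnit M ∧ P M} where
  toFun g := ⟨g.1.1, g.1.isUnit, g.2⟩
  invFun M := ⟨M.2.1.unit, by simpa using M.2.2⟩
  left_inv g := Subtype.ext (Units.ext rfl)
  right_inv M := Subtype.ext rfl

theorem card_isUnit_matrix : Nat.card {M : Matrix ι ι F // IsUnit M} = Nat.card (GL ι F) := by
  have e := glSubtypeEquiv (ι := ι) (F := F) fun _ => True
  rw [← Nat.card_congr (Equiv.subtypeUnivEquiv (p := fun _ : GL ι F => True) fun _ => trivial),
    Nat.card_congr e]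
  exact Nat.card_congr (Equiv.subtypeEquivRight fun _ => by simp)

/-- Order of a block-triangular subgroup of `GL`. -/
theorem card_block_triangular (p : ι → Prop) [DecidablePred p] :
    Nat.card {g : GL ι F // ∀ i j, ¬ p i → p j → g.1 i j = 0} =
      Nat.card F ^ (Fintype.card {i // p i} * Fintype.card {i // ¬ p i}) *
        Nat.card (GL {i // p i} F) * Nat.card (GL {i // ¬ p i} F) := by
  rw [Nat.card_congr (glSubtypeEquiv fun M : Matrix ι ι F => ∀ i j, ¬ p i → p j → M i j = 0)]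
  set e := Equiv.sumCompl p
  let E : {M : Matrix ι ι F // IsUnit M ∧ ∀ i j, ¬ p i → p j → M i j = 0} ≃
      (Matrix {i // p i} {i // ¬ p i} F × {M : Matrix {i // p i} {i // p i} F // IsUnit M}) ×
        {M : Matrix {i // ¬ p i} {i // ¬ p i} F // IsUnit M} := by
    have key : ∀ M : Matrix ι ι F, (∀ i j, ¬ p i → p j → M i j = 0) →
        M.submatrix e e = fromBlocks (M.submatrix (↑) (↑)) (M.submatrix (↑) (↑)) 0
          (M.submatrix (↑) (↑)) := fun M hM => by
      ext (i | i) (j | j)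
      · rfl
      · rfl
      · exact hM _ _ i.2 j.2
      · rfl
    refine
      { toFun := fun M => ⟨⟨M.1.submatrix (↑) (↑), M.1.submatrix (↑) (↑), ?_⟩,
          M.1.submatrix (↑) (↑), ?_⟩
        invFun := fun x => ⟨(fromBlocks x.1.2.1 x.1.1 0 x.2.1).submatrix e.symm e.symm, ?_, ?_⟩
        left_inv := fun M => Subtype.ext ?_
        right_inv := fun x => ?_ }
    · have := (isUnit_submatrix_equiv e e).2 M.2.1
      rw [key _ M.2.2, isUnit_fromBlocks_zero₂₁] at this
      exact this.1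
    · have := (isUnit_submatrix_equiv e e).2 M.2.1
      rw [key _ M.2.2, isUnit_fromBlocks_zero₂₁] at this
      exact this.2
    · rw [isUnit_submatrix_equiv, isUnit_fromBlocks_zero₂₁]
      exact ⟨x.1.2.2, x.2.2⟩
    · intro i j hi hj
      simp [e, Equiv.sumCompl_symm_apply_of_pos hj, Equiv.sumCompl_symm_apply_of_neg hi]
    · change (fromBlocks _ _ _ _).submatrix _ _ = _
      rw [← key _ M.2.2]
      simp
    · refine Prod.ext (Prod.ext ?_ (Subtype.ext ?_)) (Subtype.ext ?_) <;> ext i j <;>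
        simp [e]
  rw [Nat.card_congr E, Nat.card_prod, Nat.card_prod, card_isUnit_matrix, card_isUnit_matrix]
  congr 2
  rw [Matrix, Nat.card_fun, Nat.card_fun, ← pow_mul, Nat.card_eq_fintype_card (α := {i // p i}),
    Nat.card_eq_fintype_card (α := {i // ¬ p i}), mul_comm]

theorem card_stabilizing_fin [Fintype F] (n k : ℕ) (hk : k ≤ n) :
    Nat.card ↥(Cfsg.stabilizing (Cfsg.glToMat (Fin n) F)
      {v : Fin n → F | ∀ i : Fin n, k ≤ (i : ℕ) → v i = 0}) =
      Fintype.card F ^ (k * (n - k)) * (∏ i : Fin k, (Fintype.card F ^ k - Fintype.card F ^ (i : ℕ))) *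
        ∏ i : Fin (n - k), (Fintype.card F ^ (n - k) - Fintype.card F ^ (i : ℕ)) := by
  have h1 : Fintype.card {i : Fin n // (i : ℕ) < k} = k := by
    rw [Fintype.card_subtype]
    simpa using Fin.card_filter_val_lt.trans (min_eq_right hk)
  have h2 : Fintype.card {i : Fin n // ¬ (i : ℕ) < k} = n - k := by
    rw [Fintype.card_subtype_compl, h1, Fintype.card_fin]
  have := card_block_triangular (F := F) fun i : Fin n => (i : ℕ) < k
  rw [card_GL, card_GL, Nat.card_eq_fintype_card (α := F)] at this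
  rw [h1, h2] at this
  rw [← this]
  refine Nat.card_congr (Equiv.subtypeEquivRight fun g => ?_)
  let W : Submodule F (Fin n → F) :=
    { carrier := {v | ∀ i : Fin n, k ≤ (i : ℕ) → v i = 0}
      add_mem' := fun ha hb i hi => by simp [ha i hi, hb i hi]
      zero_mem' := fun _ _ => rfl
      smul_mem' := fun c v hv i hi => by simp [hv i hi] }
  constructor
  · intro h i j hi hj
    have := (h (Pi.single j 1)).1 (fun l hl => Pi.single_eq_of_ne (by rintro rfl; omega) _) i
      (not_lt.1 hi)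
    simpa [Cfsg.glToMat] using this
  · intro h v
    have hm : ∀ v ∈ W, g.1 *ᵥ v ∈ W := fun v hv i hi => by
      change ∑ j, g.1 i j * v j = 0
      refine Finset.sum_eq_zero fun j _ => ?_
      by_cases hj : (j : ℕ) < k
      · simp [h i j (not_lt.2 hi) hj]
      · simp [hv j (not_lt.1 hj)]
    refine ⟨hm v, fun hv => ?_⟩
    have hinj : Function.Injective (toLin' g.1) := by
      intro a b hab
      have : (g⁻¹).1 *ᵥ (g.1 *ᵥ a) = (g⁻¹).1 *ᵥ (g.1 *ᵥ b) := congrArg _ hab
      simpa [mulVec_mulVec] using this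
    have hmap : W.map (toLin' g.1) = W :=
      Submodule.eq_of_le_of_finrank_eq (by rintro _ ⟨w, hw, rfl⟩; exact hm w hw)
        (LinearEquiv.finrank_eq (Submodule.equivMapOfInjective _ hinj W)).symm
    obtain ⟨w, hw, hwv⟩ : g.1 *ᵥ v ∈ W.map (toLin' g.1) := hmap.symm ▸ hv
    exact hinj hwv ▸ hw

theorem card_lower_triangular [Fintype F] (n : ℕ) :
    Nat.card {g : GL (Fin n) F // ∀ i j : Fin n, i < j → g.1 i j = 0} =
      Fintype.card F ^ (n * (n - 1) / 2) * (Fintype.card F - 1) ^ n := by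
  rw [Nat.card_congr (glSubtypeEquiv fun M : Matrix (Fin n) (Fin n) F => ∀ i j, i < j → M i j = 0)]
  have hdet : ∀ M : Matrix (Fin n) (Fin n) F, (∀ i j, i < j → M i j = 0) →
      (IsUnit M ↔ ∀ i, M i i ≠ 0) := fun M hM => by
    rw [isUnit_iff_isUnit_det, det_of_isLowerTriangular M (fun i j h => hM i j (by simpa using h)),
      isUnit_iff_ne_zero, Finset.prod_ne_zero_iff]
    simp
  let E : {M : Matrix (Fin n) (Fin n) F // IsUnit M ∧ ∀ i j, i < j → M i j = 0} ≃
      {N : Matrix (Fin n) (Fin n) F // ∀ k l : Fin n, ¬ ((l : ℕ) < k) → N k l = 0} × (Fin n → Fˣ) :=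
    { toFun := fun M => ⟨⟨M.1 - diagonal M.1.diag, fun k l h => by
          rcases eq_or_ne k l with rfl | hkl
          · simp
          · simp [diagonal_apply_ne _ hkl, M.2.2 k l (lt_of_le_of_ne (not_lt.1 h) hkl)]⟩,
        fun i => Units.mk0 (M.1 i i) ((hdet _ M.2.2).1 M.2.1 i)⟩
      invFun := fun x => ⟨x.1.1 + diagonal fun i => (x.2 i : F), by
        have h : ∀ i j, i < j → (x.1.1 + diagonal fun i => (x.2 i : F)) i j = 0 := fun i j h => by
          simp [diagonal_apply_ne _ h.ne, x.1.2 i j (not_lt.2 h.le)]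
        exact ⟨(hdet _ h).2 fun i => by simp [x.1.2 i i (lt_irrefl _)], h⟩⟩
      left_inv := fun M => Subtype.ext (by
        change M.1 - diagonal M.1.diag + diagonal M.1.diag = M.1
        simp)
      right_inv := fun x => Prod.ext (Subtype.ext (by
          ext i j
          rcases eq_or_ne i j with rfl | h
          · simp [x.1.2 i i (lt_irrefl _)]
          · simp [diagonal_apply_ne _ h])) (funext fun i => Units.ext (by
          simp [x.1.2 i i (lt_irrefl _)])) }
  rw [Nat.card_congr E, Nat.card_prod, Nat.card_fun, card_units_field, Nat.card_eq_fintype_card (α := Fin n),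
    Fintype.card_fin]
  congr 1
  rcases card_zero_pattern (F := F) (fun k l : Fin n => (l : ℕ) < k) with h | h
  · rw [h, Nat.card_eq_fintype_card, ← card_pairs_lt]
    congr 1
    exact Nat.card_congr ((Equiv.prodComm _ _).subtypeEquiv fun _ => Iff.rfl)
  · exact absurd h (not_infinite_iff_finite.2 inferInstance)

theorem mem_normalizer_diagonal_iff (hF : ∃ a : F, a ≠ 0 ∧ a ≠ 1) (g : GL ι F) :
    g ∈ Subgroup.normalizer ((Units.map (diagonalRingHom ι F).toMonoidHom).range : Subgroup (GL ι F)) ↔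
      ∀ i, ∃! j, g.1 i j ≠ 0 := by
  have hrow : ∀ (g : GL ι F) i, ∃ j, g.1 i j ≠ 0 := fun g i => by
    by_contra! h
    have := congrFun (congrFun g.mul_inv i) i
    simp [mul_apply, h] at this
  have hcol : ∀ (g : GL ι F) j, ∃ i, g.1 i j ≠ 0 := fun g j => by
    by_contra! h
    have := congrFun (congrFun g.inv_mul j) j
    simp [mul_apply, h] at this
  have hval : ∀ d : (ι → F)ˣ, (Units.map (diagonalRingHom ι F).toMonoidHom d).1 = diagonal d.1 :=
    fun _ => rfl
  constructor
  · intro hg i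
    obtain ⟨j, hj⟩ := hrow g i
    refine ⟨j, hj, fun j' hj' => ?_⟩
    by_contra hne
    obtain ⟨a, ha0, ha1⟩ := hF
    let d : (ι → F)ˣ := (MulEquiv.piUnits (M := fun _ : ι => F)).symm
      (Function.update 1 j (Units.mk0 a ha0))
    obtain ⟨d', hd'⟩ := (Subgroup.mem_normalizer_iff.1 hg _).1 ⟨d, rfl⟩
    have h : diagonal d'.1 * g.1 = g.1 * diagonal d.1 := by
      rw [← hval, ← hval, ← Units.val_mul, ← Units.val_mul, hd', inv_mul_cancel_right]
    have h1 := congrFun (congrFun h i) j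
    have h2 := congrFun (congrFun h i) j'
    simp only [diagonal_mul, mul_diagonal] at h1 h2
    have e1 : d.1 j = a := by simp [d]
    have e2 : d.1 j' = 1 := by simp [d, Function.update_of_ne hne]
    rw [e1, mul_comm] at h1
    rw [e2, mul_comm] at h2
    exact ha1 ((mul_left_cancel₀ hj h1).symm.trans (mul_left_cancel₀ hj' h2))
  · intro hg
    choose σ hσ hσ' using hg
    have hs : Function.Surjective σ := fun j => by
      obtain ⟨i, hi⟩ := hcol g j
      exact ⟨i, (hσ' i j hi).symm⟩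
    let e := Equiv.ofBijective σ ⟨Finite.injective_iff_surjective.2 hs, hs⟩
    have key : ∀ d : ι → F, diagonal (d ∘ σ) * g.1 = g.1 * diagonal d := fun d => by
      ext i j
      simp only [diagonal_mul, mul_diagonal, Function.comp]
      by_cases h : g.1 i j = 0
      · simp [h]
      · rw [hσ' i j h, mul_comm]
    let c : (ι → F) ≃* (ι → F) := (MulEquiv.arrowCongr e.symm (MulEquiv.refl F))
    have key' : ∀ d : (ι → F)ˣ, g * Units.map (diagonalRingHom ι F).toMonoidHom d * g⁻¹ =
        Units.map (diagonalRingHom ι F).toMonoidHom (Units.mapEquiv c d) := fun d => by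
      rw [mul_inv_eq_iff_eq_mul]
      exact Units.ext (key d.1).symm
    refine Subgroup.mem_normalizer_iff.2 fun h => ⟨?_, ?_⟩
    · rintro ⟨d, rfl⟩
      exact ⟨_, (key' d).symm⟩
    · rintro ⟨d, hd⟩
      obtain ⟨d, rfl⟩ := (Units.mapEquiv c).surjective d
      rw [← key'] at hd
      exact ⟨d, by simpa using hd⟩

/-! ### `GL_2` -/

theorem mem_unipGL_two {g : GL (Fin 2) F} :
    g ∈ (unipGL (Fin.val : Fin 2 → ℕ) : Subgroup (GL (Fin 2) F)) ↔
      g.1 0 0 = 1 ∧ g.1 1 0 = 0 ∧ g.1 1 1 = 1 := by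
  simp [mem_unipGL, Raises, Fin.forall_fin_two, sub_eq_zero]

theorem gl_two_det_ne (g : GL (Fin 2) F) : g.1 0 0 * g.1 1 1 - g.1 0 1 * g.1 1 0 ≠ 0 := by
  rw [← det_fin_two]
  exact g.det_ne_zero

theorem commute_unip_two_iff {a g : GL (Fin 2) F}
    (ha : a ∈ (unipGL (Fin.val : Fin 2 → ℕ) : Subgroup (GL (Fin 2) F))) (h1 : a ≠ 1) :
    a * g = g * a ↔ g.1 1 0 = 0 ∧ g.1 0 0 = g.1 1 1 := by
  obtain ⟨h00, h10, h11⟩ := mem_unipGL_two.1 ha
  have h01 : a.1 0 1 ≠ 0 := fun h => h1 (Units.ext (by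
    ext i j
    fin_cases i <;> fin_cases j <;> simp [h00, h10, h11, h]))
  rw [Units.ext_iff, Units.val_mul, Units.val_mul, ← Matrix.ext_iff]
  simp only [Fin.forall_fin_two, mul_apply, Fin.sum_univ_two, h00, h10, h11]
  constructor
  · rintro ⟨⟨e1, e2⟩, -, -⟩
    exact ⟨mul_left_cancel₀ h01 (by linear_combination e1),
      mul_left_cancel₀ h01 (by linear_combination -e2)⟩
  · rintro ⟨e1, e2⟩
    simp [e1, e2]
    ring

theorem mem_normalizer_unip_two {g : GL (Fin 2) F} :
    g ∈ Subgroup.normalizer ((unipGL (Fin.val : Fin 2 → ℕ) : Subgroup (GL (Fin 2) F)) :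
      Set (GL (Fin 2) F)) ↔ g.1 1 0 = 0 := by
  have hp : ∀ g : GL (Fin 2) F, g ∈ parabGL (Fin.val : Fin 2 → ℕ) ↔ g.1 1 0 = 0 := fun g => by
    simp [mem_parabGL, Raises, Fin.forall_fin_two]
  constructor
  · intro hg
    let a : GL (Fin 2) F := GeneralLinearGroup.mkOfDetNeZero !![1, 1; 0, 1] (by simp)
    obtain ⟨h00, h10, h11⟩ := mem_unipGL_two.1
      ((Subgroup.mem_normalizer_iff.1 hg a).1 (mem_unipGL_two.2 (by simp [a])))
    have h := congrArg Units.val (inv_mul_cancel_right (g * a) g).symm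
    have := congrFun (congrFun h 1) 1
    change (g.1 * a.1) 1 1 = ((g * a * g⁻¹).1 * g.1) 1 1 at this
    rw [Matrix.mul_apply, Matrix.mul_apply] at this
    simp only [Fin.sum_univ_two, h10, h11] at this
    simpa [a] using this
  · intro hg
    refine Subgroup.mem_normalizer_iff.2 fun h => ⟨conj_mem_unipGL ((hp g).2 hg), fun hh => ?_⟩
    simpa [mul_assoc] using conj_mem_unipGL (inv_mem ((hp g).2 hg)) hh

theorem card_normalizer_unip_two [Fintype F] :
    Nat.card (Subgroup.normalizer ((unipGL (Fin.val : Fin 2 → ℕ) : Subgroup (GL (Fin 2) F)) :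
      Set (GL (Fin 2) F))) = Fintype.card F * (Fintype.card F - 1) ^ 2 := by
  have := card_block_triangular (F := F) fun i : Fin 2 => i = 0
  rw [card_GL, card_GL, Nat.card_eq_fintype_card (α := F)] at this
  have h2 : Fintype.card {i : Fin 2 // ¬ i = 0} = 1 := by simp
  rw [Fintype.card_subtype_eq, h2] at this
  rw [Nat.card_congr (Equiv.subtypeEquivRight (q := fun g : GL (Fin 2) F =>
    ∀ i j, ¬ i = 0 → j = 0 → g.1 i j = 0) fun g => by
      rw [mem_normalizer_unip_two]; simp [Fin.forall_fin_two]), this]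
  simp [sq, mul_assoc]

variable [Fintype F] (p : ℕ) [hp : Fact p.Prime] [CharP F p]

theorem card_sylow_gl_two : Nat.card (Sylow p (GL (Fin 2) F)) = Fintype.card F + 1 := by
  refine (Sylow.card_eq_index_normalizer (sylowGL 2 F p)).trans ?_
  change (Subgroup.normalizer ((sylowGL 2 F p : Subgroup (GL (Fin 2) F)) :
    Set (GL (Fin 2) F))).index = _
  have h := (Subgroup.normalizer ((sylowGL 2 F p : Subgroup (GL (Fin 2) F)) :
    Set (GL (Fin 2) F))).card_mul_index
  rw [card_GL] at h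
  rw [coe_sylowGL] at h ⊢
  rw [card_normalizer_unip_two] at h
  have h1 := card_field_sub_one_pos (F := F)
  obtain ⟨r, hr⟩ : ∃ r, Fintype.card F = r + 1 := ⟨Fintype.card F - 1, by omega⟩
  rw [hr] at h h1 ⊢
  refine Nat.eq_of_mul_eq_mul_left (show 0 < (r + 1) * (r + 1 - 1) ^ 2 by positivity) (h.trans ?_)
  rw [Fintype.card_fin, Fin.prod_univ_two, Fin.val_zero, Fin.val_one, show (r + 1) ^ 2 - (r + 1) ^ 0 = r * (r + 2) from Nat.sub_eq_of_eq_add (by ring),
    show (r + 1) ^ 2 - (r + 1) ^ 1 = r * (r + 1) from Nat.sub_eq_of_eq_add (by ring)]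
  simp only [Nat.add_sub_cancel]
  ring

theorem card_normalizer_sylow_gl_two (P : Sylow p (GL (Fin 2) F)) :
    Nat.card (Subgroup.normalizer ((P : Subgroup (GL (Fin 2) F)) : Set (GL (Fin 2) F))) =
      Fintype.card F * (Fintype.card F - 1) ^ 2 := by
  have h : (Subgroup.normalizer ((P : Subgroup (GL (Fin 2) F)) : Set (GL (Fin 2) F))).index =
      (Subgroup.normalizer ((sylowGL 2 F p : Subgroup (GL (Fin 2) F)) :
        Set (GL (Fin 2) F))).index := (Sylow.card_eq_index_normalizer P).symm.trans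
    (Sylow.card_eq_index_normalizer (sylowGL 2 F p))
  have h1 := (Subgroup.normalizer ((P : Subgroup (GL (Fin 2) F)) :
    Set (GL (Fin 2) F))).card_mul_index
  have h2 := (Subgroup.normalizer ((sylowGL 2 F p : Subgroup (GL (Fin 2) F)) :
    Set (GL (Fin 2) F))).card_mul_index
  rw [← card_normalizer_unip_two]
  rw [← h, ← h1] at h2
  exact (Nat.eq_of_mul_eq_mul_right (Nat.pos_of_ne_zero Subgroup.FiniteIndex.index_ne_zero) h2).symm

theorem card_centralizer_unip_two {a : GL (Fin 2) F}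
    (ha : a ∈ (unipGL (Fin.val : Fin 2 → ℕ) : Subgroup (GL (Fin 2) F))) (h1 : a ≠ 1) :
    Nat.card (Subgroup.centralizer ({a} : Set (GL (Fin 2) F))) =
      Fintype.card F * (Fintype.card F - 1) := by
  have hm : ∀ g, g ∈ Subgroup.centralizer ({a} : Set (GL (Fin 2) F)) ↔
      g.1 1 0 = 0 ∧ g.1 0 0 = g.1 1 1 := fun g => by
    rw [Subgroup.mem_centralizer_singleton_iff, eq_comm, commute_unip_two_iff ha h1]
  let E : Subgroup.centralizer ({a} : Set (GL (Fin 2) F)) ≃ F × Fˣ :=
    { toFun := fun g => (g.1.1 0 1, Units.mk0 (g.1.1 0 0) fun h => gl_two_det_ne g.1 (by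
        simp [h, ((hm _).1 g.2).1]))
      invFun := fun x => ⟨GeneralLinearGroup.mkOfDetNeZero !![x.2, x.1; 0, x.2] (by simp),
        (hm _).2 (by simp)⟩
      left_inv := fun g => Subtype.ext (Units.ext (by
        ext i j
        fin_cases i <;> fin_cases j <;> simp [((hm _).1 g.2).1, ((hm _).1 g.2).2]))
      right_inv := fun x => by simp }
  rw [Nat.card_congr E, Nat.card_prod, card_units_field, Nat.card_eq_fintype_card]

theorem card_centralizer_sylow_gl_two (P : Sylow p (GL (Fin 2) F)) {a : GL (Fin 2) F}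
    (ha : a ∈ P) (h1 : a ≠ 1) : Nat.card (Subgroup.centralizer ({a} : Set (GL (Fin 2) F))) =
      Fintype.card F * (Fintype.card F - 1) := by
  obtain ⟨g, rfl⟩ := MulAction.exists_smul_eq (GL (Fin 2) F) (sylowGL 2 F p) P
  obtain ⟨b, hb, rfl⟩ := ha
  rw [← card_centralizer_unip_two (a := b) hb (by rintro rfl; simp at h1)]
  refine (Nat.card_congr (((MulAut.conj g).toEquiv).subtypeEquiv fun x => ?_)).symm
  simp only [Subgroup.mem_centralizer_singleton_iff]
  change _ ↔ MulAut.conj g x * MulAut.conj g b = MulAut.conj g b * MulAut.conj g x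
  rw [← map_mul, ← map_mul, (MulAut.conj g).injective.eq_iff]

theorem sylow_gl_two_inf_eq_bot (P Q : Sylow p (GL (Fin 2) F)) (h : P ≠ Q) :
    (P : Subgroup (GL (Fin 2) F)) ⊓ Q = ⊥ := by
  have key : ∀ Q : Sylow p (GL (Fin 2) F), sylowGL 2 F p ≠ Q →
      (sylowGL 2 F p : Subgroup (GL (Fin 2) F)) ⊓ Q = ⊥ := fun Q h => by
    rw [eq_bot_iff]
    rintro a ⟨ha, haQ⟩
    by_contra h1
    refine h (Sylow.ext (Q.is_maximal' (sylowGL 2 F p).isPGroup' fun x hx => ?_))
    have hc : a * x = x * a := by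
      obtain ⟨g, rfl⟩ := MulAction.exists_smul_eq (GL (Fin 2) F) (sylowGL 2 F p) Q
      obtain ⟨b, hb, rfl⟩ := haQ
      obtain ⟨y, hy, rfl⟩ := hx
      change MulAut.conj g b * MulAut.conj g y = MulAut.conj g y * MulAut.conj g b
      obtain ⟨-, e2, e3⟩ := mem_unipGL_two.1 hy
      rw [← map_mul, ← map_mul, (commute_unip_two_iff hb (by rintro rfl; simp at h1)).2
        ⟨e2, by rw [e3, (mem_unipGL_two.1 hy).1]⟩]
    obtain ⟨e1, e2⟩ := (commute_unip_two_iff ha h1).1 hc
    obtain ⟨k, hk⟩ := Q.isPGroup' ⟨x, hx⟩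
    have hk' : x.1 ^ p ^ k = 1 := congrArg (fun y : Q => y.1.1) hk
    have hpow : ∀ N : ℕ, (x.1 ^ N) 0 0 = x.1 0 0 ^ N := fun N => by
      induction N with
      | zero => simp
      | succ N ih => rw [pow_succ, Matrix.mul_apply, Fin.sum_univ_two, ih, e1, pow_succ]; simp
    have h00 : x.1 0 0 = 1 := by
      have := hpow (p ^ k)
      rw [hk', one_apply_eq] at this
      have h' : (x.1 0 0 - 1) ^ p ^ k = 0 := by rw [sub_pow_char_pow, ← this]; simp
      exact sub_eq_zero.1 (pow_eq_zero_iff (pow_ne_zero _ hp.out.ne_zero) |>.1 h')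
    exact mem_unipGL_two.2 ⟨h00, e1, e2 ▸ h00⟩
  obtain ⟨g, rfl⟩ := MulAction.exists_smul_eq (GL (Fin 2) F) (sylowGL 2 F p) P
  obtain ⟨Q, rfl⟩ := (MulAction.toPerm g).surjective Q
  have := key Q (by rintro rfl; exact h rfl)
  change MulAut.conj g • (sylowGL 2 F p : Subgroup (GL (Fin 2) F)) ⊓ MulAut.conj g • (Q : Subgroup (GL (Fin 2) F)) = ⊥
  rw [← Subgroup.smul_inf, this, Subgroup.smul_bot]

omit [Fintype F] in
theorem mem_unipSL_two {g : SL(2, F)} :
    g ∈ (unipSL (Fin.val : Fin 2 → ℕ) : Subgroup SL(2, F)) ↔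
      g.1 0 0 = 1 ∧ g.1 1 0 = 0 ∧ g.1 1 1 = 1 := mem_unipGL_two

theorem sylow_sl_two_sup_eq_top (P Q : Sylow p SL(2, F)) (h : P ≠ Q) :
    (P : Subgroup SL(2, F)) ⊔ Q = ⊤ := by
  have key : ∀ Q : Sylow p SL(2, F), sylowSL 2 F p ≠ Q →
      (sylowSL 2 F p : Subgroup SL(2, F)) ⊔ Q = ⊤ := fun Q h => by
    obtain ⟨g, rfl⟩ := MulAction.exists_smul_eq SL(2, F) (sylowSL 2 F p) Q
    have hu : ∀ c : F, SpecialLinearGroup.transvection (zero_ne_one (α := Fin 2)) c ∈
        (sylowSL 2 F p : Subgroup SL(2, F)) := fun c => transvection_mem_unipSL _ (by simp) c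
    have hg : g.1 1 0 ≠ 0 := fun hg => h (Sylow.ext ((g • sylowSL 2 F p).is_maximal'
      (sylowSL 2 F p).isPGroup' ?_))
    swap
    · rintro _ ⟨y, hy, rfl⟩
      change SpecialLinearGroup.toGL (g * y * g⁻¹) ∈ unipGL _
      rw [map_mul, map_mul, map_inv]
      exact (Subgroup.mem_normalizer_iff.1 (mem_normalizer_unip_two.2 hg) _).1 hy
    refine eq_top_of_transvection_mem _ fun i j hij c => ?_
    have hd := g.2
    rw [det_fin_two] at hd
    fin_cases i <;> fin_cases j
    · exact absurd rfl hij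
    · exact Subgroup.mem_sup_left (hu c)
    · set u := SpecialLinearGroup.transvection (zero_ne_one (α := Fin 2)) (-(g.1 0 0 / g.1 1 0))
      have hm : u * (g * SpecialLinearGroup.transvection (zero_ne_one (α := Fin 2))
          (-(c / g.1 1 0 ^ 2)) * g⁻¹) * u⁻¹ ∈ (sylowSL 2 F p : Subgroup SL(2, F)) ⊔
            (g • sylowSL 2 F p : Sylow p SL(2, F)) :=
        mul_mem (mul_mem (Subgroup.mem_sup_left (hu _)) (Subgroup.mem_sup_right ⟨_, hu _, rfl⟩))
          (inv_mem (Subgroup.mem_sup_left (hu _)))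
      convert hm using 1
      rw [eq_mul_inv_iff_mul_eq, ← mul_assoc u, ← mul_assoc u, eq_mul_inv_iff_mul_eq]
      refine Subtype.ext ?_
      change (1 + single (1 : Fin 2) (0 : Fin 2) c) * (1 + single (0 : Fin 2) (1 : Fin 2) (-(g.1 0 0 / g.1 1 0))) * g.1 =
        (1 + single (0 : Fin 2) (1 : Fin 2) (-(g.1 0 0 / g.1 1 0))) * g.1 *
          (1 + single (0 : Fin 2) (1 : Fin 2) (-(c / g.1 1 0 ^ 2)))
      ext a b
      fin_cases a <;> fin_cases b <;>
        simp [Matrix.mul_apply, Fin.sum_univ_two, one_apply, single_apply] <;>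
        field_simp
      all_goals first | (simp; done) | ring1 | linear_combination (-c) * hd
    · exact absurd rfl hij
  obtain ⟨g, rfl⟩ := MulAction.exists_smul_eq SL(2, F) (sylowSL 2 F p) P
  obtain ⟨Q, rfl⟩ := (MulAction.toPerm g).surjective Q
  have := key Q (by rintro rfl; exact h rfl)
  change MulAut.conj g • (sylowSL 2 F p : Subgroup SL(2, F)) ⊔
    MulAut.conj g • (Q : Subgroup SL(2, F)) = ⊤
  rw [← Subgroup.smul_sup, this]
  exact Subgroup.map_top_of_surjective _ (MulAut.conj g).surjective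

end Cfsg.Lib.Linear
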